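import Cfsg.Agent.Chev.AutThm.OutE
import Cfsg.Agent.Chev.AutThm.Syms
import Mathlib.GroupTheory.SpecificGroups.Dihedral

/-!
The outer automorphism group of the split group of type D4: a split extension of diagonal classes by the
symmetries of the diagram, times the field automorphisms.
-/

set_option autoImplicit false
set_option maxRecDepth 100000

namespace CfsgLib.Chev.AutThm.D4

open Cfsg.Lie CfsgLib.Chev
open scoped Classical

universe u

variable (F : Type u) [Field F] [Finite F]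

/-- Permuting the fundamental root elements without scalars. -/
def PermAut (θ : MulAut (chevD4.group F)) (π : Equiv.Perm (Fin chevD4.rank)) : Prop :=
  (sysD4.{u}).StdAut θ π (fun _ t => t) (fun _ t => t)

variable {F}

theorem permAut_unique {θ θ' : MulAut (chevD4.group F)} {π : Equiv.Perm (Fin chevD4.rank)}
    (h : PermAut F θ π) (h' : PermAut F θ' π) : θ = θ' :=
  (sysD4.{u}).aut_ext fun i t => ⟨(h.pos i t).trans (h'.pos i t).symm, (h.neg i t).trans (h'.neg i t).symm⟩

variable (F)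

/-- The permutations realised in this way. -/
def permGroup : Subgroup (Equiv.Perm (Fin chevD4.rank)) where
  carrier := {π | ∃ θ, PermAut F θ π}
  one_mem' := ⟨1, ⟨⟨fun i t => rfl, fun i t => rfl⟩, fun _ => Iff.rfl, fun _ => Iff.rfl⟩⟩
  mul_mem' := fun ⟨θ, h⟩ ⟨θ', h'⟩ => ⟨θ * θ', h.mul h'⟩
  inv_mem' := fun {π} ⟨θ, h⟩ => ⟨θ⁻¹, ⟨⟨fun i t => θ.injective (by
      rw [MulAut.apply_inv_self, h.pos, Equiv.Perm.coe_inv, Equiv.apply_symm_apply]),
    fun i t => θ.injective (by
      rw [MulAut.apply_inv_self, h.neg, Equiv.Perm.coe_inv, Equiv.apply_symm_apply])⟩, h.keepU.symm, h.keepV.symm⟩⟩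

theorem graph_mem (G : Twisted.Graph chevD4) : G.tauP ∈ permGroup F := by
  have hφ : ∀ r < chevD4.nroots, ∀ t : F,
      (G.graphAut sysD4.{u}) ((sysD4.{u}).xG r t) = (sysD4.{u}).xG (G.rho r) ((G.eps r : F) * t) := fun r hr t => by
    refine Subtype.ext ?_
    show (G.gamma F : GL chevD4.Idx F) * (sysD4.{u}).xU r t * (G.gamma F)⁻¹ = (sysD4.{u}).xU (G.rho r) ((G.eps r : F) * t)
    rw [mul_inv_eq_iff_eq_mul]
    exact Units.ext (by simpa using G.gamma_x sysD4.{u} hr t)
  refine ⟨G.graphAut sysD4.{u}, ⟨⟨fun i t => ?_, fun i t => ?_⟩, (sysD4.{u}).keeps_pos_of_roots fun r hr hr' t => ?_,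
    (sysD4.{u}).keeps_neg_of_roots fun r hr hr' t => ?_⟩⟩
  · rw [hφ _ ((sysD4.{u}).simple_lt i.2), G.rho_simple i i.2, G.eps_simple i i.2, G.tauP_apply, Int.cast_one, one_mul]
  · rw [hφ _ ((sysD4.{u}).neg_lt ((sysD4.{u}).simple_lt i.2)), G.rho_neg _ ((sysD4.{u}).simple_lt i.2), G.rho_simple i i.2,
      G.eps_neg _ ((sysD4.{u}).simple_lt i.2), G.eps_simple i i.2, G.tauP_apply, Int.cast_one, one_mul]
  · rw [hφ _ hr']
    exact (sysD4.{u}).xU_mem_posUnipotent ((G.rho_pos r hr').2 hr) (G.rho_lt r hr') _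
  · rw [hφ _ hr']
    refine (sysD4.{u}).xU_mem_neg ?_ _
    have := G.rho_pos r hr'
    omega

theorem permGroup_le : permGroup F ≤ ((sysD4.{u}).nodePermHom (F := F)).range := fun π ⟨θ, h⟩ =>
  ⟨θ, (sysD4.{u}).nodePerm_of_std h⟩

theorem permGroup_eq : permGroup F = ((sysD4.{u}).nodePermHom (F := F)).range := by
  refine Subgroup.eq_of_le_of_card_ge (permGroup_le F) ?_
  rw [(perm_D4 F).1]
  have h3 : orderOf graphD4Cyc.tauP = 3 := by
    haveI : Fact (Nat.Prime 3) := ⟨Nat.prime_three⟩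
    refine orderOf_eq_prime (Equiv.ext fun i => Fin.ext ?_) fun e => ?_
    · simp only [pow_succ, pow_zero, one_mul, Equiv.Perm.mul_apply, Twisted.Graph.tauP_apply, Equiv.Perm.one_apply]
      revert i; decide +kernel
    · have := congrArg (fun π : Equiv.Perm (Fin chevD4.rank) => (π ⟨0, by decide⟩ : ℕ)) e
      simp only [Twisted.Graph.tauP_apply, Equiv.Perm.one_apply] at this
      revert this; decide +kernel
  have h2 : orderOf graphD4Swap.tauP = 2 := by
    haveI : Fact (Nat.Prime 2) := ⟨Nat.prime_two⟩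
    refine orderOf_eq_prime (Equiv.ext fun i => Fin.ext ?_) fun e => ?_
    · simp only [pow_succ, pow_zero, one_mul, Equiv.Perm.mul_apply, Twisted.Graph.tauP_apply, Equiv.Perm.one_apply]
      revert i; decide +kernel
    · have := congrArg (fun π : Equiv.Perm (Fin chevD4.rank) => (π ⟨0, by decide⟩ : ℕ)) e
      simp only [Twisted.Graph.tauP_apply, Equiv.Perm.one_apply] at this
      revert this; decide +kernel
  have d3 := Subgroup.orderOf_dvd_natCard (permGroup F) (graph_mem F graphD4Cyc)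
  have d2 := Subgroup.orderOf_dvd_natCard (permGroup F) (graph_mem F graphD4Swap)
  rw [h3] at d3
  rw [h2] at d2
  exact Nat.le_of_dvd Nat.card_pos (Nat.Coprime.mul_dvd_of_dvd_of_dvd (m := 3) (n := 2) (by norm_num) d3 d2)

theorem card_permGroup : Nat.card (permGroup F) = 6 := by rw [permGroup_eq, (perm_D4 F).1]

theorem fix_centre {π : Equiv.Perm (Fin chevD4.rank)} (h : π ∈ permGroup F) :
    π ⟨1, by decide⟩ = ⟨1, by decide⟩ := by
  obtain ⟨θ, hθ⟩ := permGroup_le F h
  have hm := permList_mem_syms ((sysD4.{u}).nodePermHom_symmetry bondOK_D4 θ)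
  rw [hθ] at hm
  have hall : ∀ l ∈ syms chevD4, l.getD 1 0 = 1 := by decide +kernel
  have h1 := hall _ hm
  rw [List.getD_eq_getElem _ _ (by simp [permList]; decide)] at h1
  exact Fin.ext (by simpa [permList] using h1)

/-- The symmetry group is symmetric on the three outer nodes. -/
theorem permGroup_equiv : Nonempty (permGroup F ≃* Equiv.Perm (Fin 3)) := by
  let c : Fin chevD4.rank := ⟨1, by decide⟩
  let f : permGroup F →* Equiv.Perm {i : Fin chevD4.rank // i ≠ c} :=
    MonoidHom.mk' (fun π => π.1.subtypePerm fun i => not_congr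
      ⟨fun e => π.1.injective (e.trans (fix_centre F π.2).symm), fun e => e.symm ▸ fix_centre F π.2⟩)
      fun a b => Equiv.ext fun i => rfl
  have hinj : Function.Injective f := fun a b e => by
    refine Subtype.ext (Equiv.ext fun i => ?_)
    rcases eq_or_ne i c with rfl | hi
    · exact (fix_centre F a.2).trans (fix_centre F b.2).symm
    · exact congrArg (fun σ : Equiv.Perm {i : Fin chevD4.rank // i ≠ c} => (σ ⟨i, hi⟩).1) e
  have hcard : Fintype.card {i : Fin chevD4.rank // i ≠ c} = 3 := by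
    simp only [c]
    decide
  have hbij : Function.Bijective f := (Nat.bijective_iff_injective_and_card f).2 ⟨hinj, by
    rw [card_permGroup, Nat.card_perm, Nat.card_eq_fintype_card, hcard]; rfl⟩
  exact ⟨(MulEquiv.ofBijective f hbij).trans (Fintype.equivFinOfCardEq hcard).permCongrHom⟩

/-- The section of the node permutation. -/
noncomputable def lift : permGroup F →* MulAut (chevD4.group F) :=
  MonoidHom.mk' (fun π => π.2.choose) fun a b =>
    permAut_unique (a * b).2.choose_spec (a.2.choose_spec.mul b.2.choose_spec)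

theorem lift_spec (π : permGroup F) : PermAut F (lift F π) π.1 := π.2.choose_spec

/-- The section in the outer automorphism group. -/
noncomputable def outLift : permGroup F →* Cfsg.Out (chevD4.group F) :=
  (QuotientGroup.mk' _).comp (lift F)

theorem outPerm_outLift (π : permGroup F) : (sysD4.{u}).outPerm (outLift F π) = π.1 :=
  (sysD4.{u}).nodePerm_of_std (lift_spec F π)

theorem outLift_injective : Function.Injective (outLift F) := fun a b e =>
  Subtype.ext (by rw [← outPerm_outLift F a, e, outPerm_outLift])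

theorem lift_field (π : permGroup F) (σ : F ≃+* F) :
    Commute (fieldAutHom chevD4 F σ) (lift F π) := by
  refine (sysD4.{u}).aut_ext fun i t => ?_
  have h1 := (sysD4.{u}).simple_lt (π.1 i).2
  constructor
  · rw [MulAut.mul_apply, MulAut.mul_apply, fieldAutHom_apply, (lift_spec F π).pos, (sysD4.{u}).fieldAut_xG,
      (sysD4.{u}).fieldAut_xG, (lift_spec F π).pos]
  · rw [MulAut.mul_apply, MulAut.mul_apply, fieldAutHom_apply, (lift_spec F π).neg, (sysD4.{u}).fieldAut_xG,
      (sysD4.{u}).fieldAut_xG, (lift_spec F π).neg]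

theorem lift_diag (π : permGroup F) (z : Fin chevD4.rank → Fˣ) :
    lift F π * (sysD4.{u}).diagHom z = (sysD4.{u}).diagHom (fun j => z (π.1.symm j)) * lift F π := by
  refine (sysD4.{u}).aut_ext fun i t => ?_
  have h0 := (sysD4.{u}).simple_lt i.2
  have h1 := (sysD4.{u}).simple_lt (π.1 i).2
  constructor
  · rw [MulAut.mul_apply, MulAut.mul_apply, (lift_spec F π).pos, (sysD4.{u}).diagHom_apply, (sysD4.{u}).diagHom_apply,
      (sysD4.{u}).diagAut_xG _ h0, (sysD4.{u}).diagAut_xG _ h1, (lift_spec F π).pos, (sysD4.{u}).chi_simple _ i.2,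
      (sysD4.{u}).chi_simple _ (π.1 i).2, Sys.extVal_apply, Sys.extVal_apply, Equiv.symm_apply_apply]
  · rw [MulAut.mul_apply, MulAut.mul_apply, (lift_spec F π).neg, (sysD4.{u}).diagHom_apply, (sysD4.{u}).diagHom_apply,
      (sysD4.{u}).diagAut_xG _ ((sysD4.{u}).neg_lt h0), (sysD4.{u}).diagAut_xG _ ((sysD4.{u}).neg_lt h1), (lift_spec F π).neg,
      (sysD4.{u}).chi_neg _ h0, (sysD4.{u}).chi_neg _ h1, (sysD4.{u}).chi_simple _ i.2, (sysD4.{u}).chi_simple _ (π.1 i).2,
      Sys.extVal_apply, Sys.extVal_apply, Equiv.symm_apply_apply]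

theorem field_diag (σ : F ≃+* F) (z : Fin chevD4.rank → Fˣ) :
    fieldAutHom chevD4 F σ * (sysD4.{u}).diagHom z =
      (sysD4.{u}).diagHom (fun j => Units.map (σ : F →* F) (z j)) * fieldAutHom chevD4 F σ := by
  refine (sysD4.{u}).aut_ext fun i t => ?_
  have h0 := (sysD4.{u}).simple_lt i.2
  constructor
  · rw [MulAut.mul_apply, MulAut.mul_apply, fieldAutHom_apply, (sysD4.{u}).diagHom_apply, (sysD4.{u}).diagHom_apply,
      (sysD4.{u}).diagAut_xG _ h0, (sysD4.{u}).fieldAut_xG, (sysD4.{u}).fieldAut_xG, (sysD4.{u}).diagAut_xG _ h0, (sysD4.{u}).chi_simple _ i.2,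
      (sysD4.{u}).chi_simple _ i.2, Sys.extVal_apply, Sys.extVal_apply, map_mul]
    rfl
  · rw [MulAut.mul_apply, MulAut.mul_apply, fieldAutHom_apply, (sysD4.{u}).diagHom_apply, (sysD4.{u}).diagHom_apply,
      (sysD4.{u}).diagAut_xG _ ((sysD4.{u}).neg_lt h0), (sysD4.{u}).fieldAut_xG, (sysD4.{u}).fieldAut_xG,
      (sysD4.{u}).diagAut_xG _ ((sysD4.{u}).neg_lt h0), (sysD4.{u}).chi_neg _ h0, (sysD4.{u}).chi_neg _ h0, (sysD4.{u}).chi_simple _ i.2,
      (sysD4.{u}).chi_simple _ i.2, Sys.extVal_apply, Sys.extVal_apply, map_mul, ← map_inv]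
    rfl

/-- The diagonal classes and the symmetries. -/
noncomputable def pgo : Subgroup (Cfsg.Out (chevD4.group F)) :=
  ((sysD4.{u}).outDiag (F := F)).range ⊔ (outLift F).range

theorem exists_pgo {e : Cfsg.Out (chevD4.group F)} (he : e ∈ pgo F) :
    ∃ z π, e = (sysD4.{u}).outDiag z * outLift F π := by
  haveI : ((sysD4.{u}).outDiag (F := F)).range.Normal := (sysD4.{u}).outDiag_normal
  rw [pgo, Subgroup.mem_sup_of_normal_left] at he
  obtain ⟨_, ⟨z, rfl⟩, _, ⟨π, rfl⟩, rfl⟩ := he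
  exact ⟨z, π, rfl⟩

theorem outDiag_mem_ker (z : Fin chevD4.rank → Fˣ) : (sysD4.{u}).outPerm ((sysD4.{u}).outDiag z) = 1 :=
  (sysD4.{u}).nodePerm_of_std ((sysD4.{u}).stdAut_diag _)

theorem card_pgo : Nat.card (pgo F) = Nat.card ((sysD4.{u}).outDiag (F := F)).range * 6 := by
  rw [← card_permGroup F, ← Nat.card_prod]
  refine Nat.card_congr (Equiv.ofBijective
    (fun p : ((sysD4.{u}).outDiag (F := F)).range × permGroup F =>
      (⟨p.1.1 * outLift F p.2, Subgroup.mul_mem_sup p.1.2 ⟨p.2, rfl⟩⟩ : pgo F)) ⟨?_, ?_⟩).symm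
  · rintro ⟨⟨_, z, rfl⟩, π⟩ ⟨⟨_, z', rfl⟩, π'⟩ h
    have h0 : (sysD4.{u}).outDiag z * outLift F π = (sysD4.{u}).outDiag z' * outLift F π' := congrArg Subtype.val h
    have h1 := congrArg (sysD4.{u}).outPerm h0
    rw [map_mul, map_mul, outDiag_mem_ker, outDiag_mem_ker, outPerm_outLift, outPerm_outLift, one_mul, one_mul] at h1
    obtain rfl : π = π' := Subtype.ext h1
    exact Prod.ext (Subtype.ext (mul_right_cancel h0)) rfl
  · rintro ⟨e, he⟩
    obtain ⟨z, π, rfl⟩ := exists_pgo F he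
    exact ⟨(⟨_, z, rfl⟩, π), rfl⟩

/-- If the field automorphisms fix the diagonal classes, the outer group is a direct product. -/
theorem out_equiv [Fintype F] {p f : ℕ} [Fact p.Prime] [CharP F p] (hF : Fintype.card F = p ^ f) (hf : f ≠ 0)
    (hfix : ∀ (σ : F ≃+* F) (z : Fin chevD4.rank → Fˣ),
      (sysD4.{u}).outDiag (fun j => Units.map (σ : F →* F) (z j)) = (sysD4.{u}).outDiag z) :
    Nonempty (Cfsg.Out (chevD4.group F) ≃* pgo F × Multiplicative (ZMod f)) := by
  have hcomm : ∀ (e : pgo F) (σ : F ≃+* F), Commute ((pgo F).subtype e) (Sys.outField chevD4 F σ) := by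
    rintro ⟨e, he⟩ σ
    obtain ⟨z, π, rfl⟩ := exists_pgo F he
    show Commute ((sysD4.{u}).outDiag z * outLift F π) (Sys.outField chevD4 F σ)
    refine Commute.mul_left (Commute.symm ?_) ((lift_field F π σ).symm.map (QuotientGroup.mk' _))
    show Sys.outField chevD4 F σ * (sysD4.{u}).outDiag z = (sysD4.{u}).outDiag z * Sys.outField chevD4 F σ
    conv_rhs => rw [← hfix σ z]
    show QuotientGroup.mk' _ (fieldAutHom chevD4 F σ) * QuotientGroup.mk' _ ((sysD4.{u}).diagHom z) = _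
    rw [← map_mul, field_diag, map_mul]
    rfl
  have hr : (0 : ℕ) < chevD4.rank := by decide
  let θ := (pgo F).subtype.noncommCoprod (Sys.outField chevD4 F) hcomm
  have hbij : Function.Bijective θ := by
    constructor
    · refine (injective_iff_map_eq_one θ).2 ?_
      rintro ⟨⟨e, he⟩, σ⟩ h
      obtain ⟨z, π, rfl⟩ := exists_pgo F he
      have h0 : (sysD4.{u}).outDiag z * outLift F π * Sys.outField chevD4 F σ = 1 := h
      have h1 := congrArg (sysD4.{u}).outPerm h0
      have hσ : (sysD4.{u}).outPerm (Sys.outField chevD4 F σ) = 1 := (sysD4.{u}).nodePerm_of_std ((sysD4.{u}).stdAut_field σ)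
      rw [map_mul, map_mul, outDiag_mem_ker, outPerm_outLift, hσ, one_mul, mul_one, map_one] at h1
      obtain rfl : π = 1 := Subtype.ext h1
      rw [map_one, mul_one] at h0
      have hd : (sysD4.{u}).outDiag z = 1 := Subgroup.disjoint_def.1 ((sysD4.{u}).disjoint_outDiag_outField (F := F) hr)
        ⟨z, rfl⟩ ⟨σ⁻¹, by rw [map_inv]; exact (eq_inv_of_mul_eq_one_left h0).symm⟩
      refine Prod.ext (Subtype.ext ?_) ?_
      · show (sysD4.{u}).outDiag z * outLift F 1 = 1
        rw [hd, map_one, mul_one]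
      · rw [hd, one_mul] at h0
        exact (sysD4.{u}).outField_injective hr (h0.trans (map_one _).symm)
    · intro a
      have hπ : (sysD4.{u}).outPerm a ∈ permGroup F := by
        rw [permGroup_eq, ← (sysD4.{u}).outPerm_range]; exact ⟨a, rfl⟩
      obtain ⟨z, σ, h⟩ := (sysD4.{u}).exists_outPerm_ker connOK_D4 (symCert_id one_D4)
        (a := a * (outLift F ⟨_, hπ⟩)⁻¹) (by rw [map_mul, map_inv, outPerm_outLift, mul_inv_cancel])
      refine ⟨(⟨(sysD4.{u}).outDiag z * outLift F ⟨_, hπ⟩, Subgroup.mul_mem_sup ⟨z, rfl⟩ ⟨_, rfl⟩⟩, σ), ?_⟩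
      show (sysD4.{u}).outDiag z * outLift F ⟨_, hπ⟩ * Sys.outField chevD4 F σ = a
      have hc : Commute (outLift F ⟨_, hπ⟩) (Sys.outField chevD4 F σ) :=
        (lift_field F ⟨_, hπ⟩ σ).symm.map (QuotientGroup.mk' _)
      rw [mul_assoc, hc.eq, ← mul_assoc, ← h, inv_mul_cancel_right]
  obtain ⟨hcyc, hcard⟩ := ringAut_cyclic_card F hF
  let e : (F ≃+* F) ≃* Multiplicative (ZMod f) :=
    mulEquivOfCyclicCardEq (by rw [hcard, Nat.card_congr Multiplicative.toAdd, Nat.card_zmod])
  exact ⟨(MulEquiv.ofBijective θ hbij).symm.trans ((MulEquiv.refl _).prodCongr e)⟩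

theorem card_out_D4 [Fintype F] {p f : ℕ} [Fact p.Prime] [CharP F p] (hF : Fintype.card F = p ^ f) :
    Nat.card (Cfsg.Out (chevD4.group F)) = 6 * (Nat.gcd (p ^ f - 1) 2 ^ 2 * f) := by
  rw [(sysD4.{u}).card_out connOK_D4 (symCert_id one_D4) torD4 (by decide), (perm_D4 F).1, (ringAut_cyclic_card F hF).2,
    Nat.card_eq_fintype_card, hF]
  show 6 * ((∏ i : Fin 4, (p ^ f - 1).gcd (([1, 1, 2, 2] : List ℕ).getD i 0)) * f) = _
  simp [Fin.prod_univ_succ, sq]

theorem card_mulAut [Fintype F] {p f : ℕ} [Fact p.Prime] [CharP F p] (hF : Fintype.card F = p ^ f) :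
    Nat.card (MulAut (chevD4.group F)) = 6 * (Nat.gcd (p ^ f - 1) 2 ^ 2 * f) * Nat.card (chevD4.group F) := by
  rw [← card_out_D4 F hF, Subgroup.card_eq_card_quotient_mul_card_subgroup (Cfsg.Inn (chevD4.group F))]
  congr 1
  refine (Nat.card_congr (MonoidHom.ofInjective (f := MulAut.conj) ?_).toEquiv).symm
  refine (injective_iff_map_eq_one _).2 fun y hy => ?_
  obtain ⟨-, h1, -⟩ := (sysD4.{u}).inner_eq (z := 1) (σ := 1) (y := y) (by rw [map_one, map_one, mul_one, hy])
    (by decide)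
  refine Subtype.ext (h1.symm.trans ?_)
  rw [map_one]
  exact map_one (sysD4.{u}).dgHom

/-- Diagonal data in the image of the torus give inner automorphisms. -/
theorem outDiag_eq_one {z : Fin chevD4.rank → Fˣ} {c : Fin chevD4.rank → Fˣ}
    (h : ∀ i, z i = ∏ j, c j ^ chevD4.cartan (j : ℕ) (chevD4.simple (i : ℕ))) : (sysD4.{u}).outDiag z = 1 := by
  have hd : (sysD4.{u}).dg (Sys.extVal chevD4 F z) ∈ chevD4.diagonalSubgroup F := by
    rw [(sysD4.{u}).diagonalSubgroup_eq]
    refine ⟨c, (sysD4.{u}).dg_congr fun i hi => ?_⟩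
    rw [show Sys.extVal chevD4 F z i = z ⟨i, hi⟩ from Sys.extVal_apply (D := chevD4) z ⟨i, hi⟩, h]
    rfl
  exact (QuotientGroup.eq_one_iff _).2 ⟨⟨_, (sysD4.{u}).borel_le_group (Subgroup.mem_sup_right hd)⟩,
    MulEquiv.ext fun w => Subtype.ext rfl⟩

theorem exists_of_outDiag_eq_one {z : Fin chevD4.rank → Fˣ} (h : (sysD4.{u}).outDiag z = 1) :
    ∃ c : Fin chevD4.rank → Fˣ, ∀ i, z i = ∏ j, c j ^ chevD4.cartan (j : ℕ) (chevD4.simple (i : ℕ)) := by
  obtain ⟨y, hy⟩ := (QuotientGroup.eq_one_iff (N := Cfsg.Inn (chevD4.group F)) _).1 h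
  obtain ⟨-, h1, h2⟩ := (sysD4.{u}).inner_eq (z := z) (σ := 1) (y := y) (by rw [map_one, mul_one, hy]) (by decide)
  rw [← h1, (sysD4.{u}).diagonalSubgroup_eq] at h2
  obtain ⟨c, hc⟩ := h2
  refine ⟨c, fun i => ?_⟩
  have := (sysD4.{u}).dg_inj (hc : (sysD4.{u}).dg (torHom chevD4 c) = _) i.2
  rw [Sys.extVal_apply] at this
  exact this.symm

theorem outDiag_sq (u : Fin chevD4.rank → Fˣ) : (sysD4.{u}).outDiag (fun i => u i * u i) = 1 := by
  let M : Matrix (Fin chevD4.rank) (Fin chevD4.rank) ℤ :=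
    Matrix.of fun i j => chevD4.cartan (j : ℕ) (chevD4.simple (i : ℕ))
  let B : Matrix (Fin chevD4.rank) (Fin chevD4.rank) ℤ :=
    lmat [[2, 2, 1, 1], [2, 4, 2, 2], [1, 2, 2, 1], [1, 2, 1, 2]]
  have hMB : M * B = Matrix.diagonal fun _ => ((2 : ℕ) : ℤ) := by decide +kernel
  refine outDiag_eq_one F (c := mact B u) fun i => ?_
  show u i * u i = mact M (mact B u) i
  rw [← MonoidHom.comp_apply, ← mact_mul, hMB, mact_diag_apply, sq]

theorem hfix_two [CharP F 2] (σ : F ≃+* F) (z : Fin chevD4.rank → Fˣ) :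
    (sysD4.{u}).outDiag (fun j => Units.map (σ : F →* F) (z j)) = (sysD4.{u}).outDiag z := by
  have hsq : ∀ x : Fˣ, ∃ y : Fˣ, y * y = x := fun x => by
    obtain ⟨y, hy⟩ := FiniteField.isSquare_of_char_two (ringChar.eq F 2) (x : F)
    exact ⟨Units.mk0 y (fun e => x.ne_zero (by rw [hy, e, mul_zero])), Units.ext hy.symm⟩
  have h1 : ∀ w : Fin chevD4.rank → Fˣ, (sysD4.{u}).outDiag w = 1 := fun w => by
    choose y hy using fun i => hsq (w i)
    rw [show w = fun i => y i * y i from funext fun i => (hy i).symm]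
    exact outDiag_sq F y
  rw [h1, h1]

theorem out_two [Fintype F] {f : ℕ} (hF : Fintype.card F = 2 ^ f) (hf : f ≠ 0) :
    Nonempty (Cfsg.Out (chevD4.group F) ≃* Equiv.Perm (Fin 3) × Multiplicative (ZMod f)) := by
  haveI : Fact (Nat.Prime 2) := ⟨Nat.prime_two⟩
  haveI : CharP F 2 := charP_of_card_eq_prime_pow hF
  obtain ⟨e⟩ := out_equiv F hF hf (hfix_two F)
  obtain ⟨e3⟩ := permGroup_equiv F
  have hg : Nat.gcd (2 ^ f - 1) 2 = 1 := by
    obtain ⟨k, rfl⟩ := Nat.exists_eq_succ_of_ne_zero hf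
    rw [Nat.gcd_comm, ← Nat.coprime_iff_gcd_eq_one, Nat.prime_two.coprime_iff_not_dvd, pow_succ]
    have := Nat.one_le_two_pow (n := k)
    omega
  have hcard : Nat.card ((sysD4.{u}).outDiag (F := F)).range = 1 := by
    rw [(sysD4.{u}).card_outDiag_eq torD4 (by decide), Nat.card_eq_fintype_card, hF]
    show (∏ i : Fin 4, (2 ^ f - 1).gcd (([1, 1, 2, 2] : List ℕ).getD i 0)) = 1
    simp [Fin.prod_univ_succ, hg]
  let g : permGroup F →* pgo F :=
    MonoidHom.mk' (fun π => ⟨outLift F π, Subgroup.mem_sup_right ⟨π, rfl⟩⟩) fun a b => Subtype.ext (map_mul _ a b)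
  have hbij : Function.Bijective g := (Nat.bijective_iff_injective_and_card g).2
    ⟨fun a b h => outLift_injective F (congrArg Subtype.val h), by rw [card_pgo, hcard, one_mul, card_permGroup]⟩
  exact ⟨e.trans (((MulEquiv.ofBijective g hbij).symm.trans e3).prodCongr (MulEquiv.refl _))⟩

theorem out_odd [Fintype F] {p f : ℕ} [Fact p.Prime] (hF : Fintype.card F = p ^ f) (hp : p ≠ 2) (hf : f ≠ 0) :
    Nonempty (Cfsg.Out (chevD4.group F) ≃* Equiv.Perm (Fin 4) × Multiplicative (ZMod f)) := by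
  haveI : CharP F p := charP_of_card_eq_prime_pow hF
  have hchar : ringChar F ≠ 2 := by rw [ringChar.eq F p]; exact hp
  obtain ⟨ν, hν⟩ := FiniteField.exists_nonsquare hchar
  obtain ⟨n, hn⟩ : ∃ n : Fˣ, (n : F) = ν := ⟨Units.mk0 ν fun e => hν (e ▸ IsSquare.zero), rfl⟩
  -- automorphisms preserve square classes
  have hfix : ∀ (σ : F ≃+* F) (z : Fin chevD4.rank → Fˣ),
      (sysD4.{u}).outDiag (fun j => Units.map (σ : F →* F) (z j)) = (sysD4.{u}).outDiag z := fun σ z => by
    have hr : ∀ x : Fˣ, ∃ y : Fˣ, Units.map (σ : F →* F) x = x * (y * y) := fun x => by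
      have hiff : IsSquare (x : F) ↔ IsSquare (σ x) :=
        ⟨fun h => h.map σ, fun h => by simpa using h.map σ.symm⟩
      have hq : IsSquare (σ x / (x : F)) := by
        have hx := x.ne_zero
        have hσx : σ x ≠ 0 := by simpa using hx
        have : IsSquare (σ x * (x : F)) := by
          by_cases hs : IsSquare (x : F)
          · exact (hiff.1 hs).mul hs
          · refine (quadraticChar_one_iff_isSquare (mul_ne_zero hσx hx)).mp ?_
            rw [map_mul, quadraticChar_neg_one_iff_not_isSquare.mpr hs,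
              quadraticChar_neg_one_iff_not_isSquare.mpr fun h => hs (hiff.2 h)]
            norm_num
        obtain ⟨r, hr⟩ := this
        exact ⟨r / x, by field_simp; linear_combination hr⟩
      obtain ⟨r, hr⟩ := hq
      have hr0 : r ≠ 0 := fun e => by
        rw [e, mul_zero, div_eq_zero_iff] at hr
        rcases hr with h | h
        · exact x.ne_zero (by simpa using h)
        · exact x.ne_zero h
      refine ⟨Units.mk0 r hr0, Units.ext ?_⟩
      show σ x = x * (r * r)
      rw [← hr, mul_div_cancel₀ _ x.ne_zero]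
    choose y hy using fun j => hr (z j)
    rw [show (fun j => Units.map (σ : F →* F) (z j)) = z * fun j => y j * y j from funext hy, map_mul, outDiag_sq,
      mul_one]
  obtain ⟨e⟩ := out_equiv F hF hf hfix
  haveI : ((sysD4.{u}).outDiag (F := F)).range.Normal := (sysD4.{u}).outDiag_normal
  have hD : Nat.card ((sysD4.{u}).outDiag (F := F)).range = 4 := by
    rw [(sysD4.{u}).card_outDiag_eq torD4 (by decide), Nat.card_eq_fintype_card, hF]
    show (∏ i : Fin 4, (p ^ f - 1).gcd (([1, 1, 2, 2] : List ℕ).getD i 0)) = 4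
    have : Nat.gcd (p ^ f - 1) 2 = 2 := Nat.gcd_eq_right (by
      obtain ⟨k, hk⟩ := ((Fact.out : p.Prime).odd_of_ne_two hp).pow (n := f)
      omega)
    simp [Fin.prod_univ_succ, this]
  have hfaith : ∀ π : permGroup F, (∀ z : Fin chevD4.rank → Fˣ, (sysD4.{u}).outDiag (fun j => z (π.1.symm j)) = (sysD4.{u}).outDiag z) → π = 1 := by
    intro π hπ
    by_contra hne
    have h1 := fix_centre F π.2
    obtain ⟨a, ha⟩ : ∃ a, π.1 a ≠ a := by
      by_contra hc
      push Not at hc
      exact hne (Subtype.ext (Equiv.ext hc))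
    have ha1 : a ≠ ⟨1, by decide⟩ := fun e => ha (e ▸ h1)
    have hb1 : π.1 a ≠ ⟨1, by decide⟩ := fun e => ha1 (π.1.injective (e.trans h1.symm))
    have hex : ∀ x y : Fin chevD4.rank, ∃ w, w ≠ ⟨1, by decide⟩ ∧ w ≠ x ∧ w ≠ y := by decide +kernel
    obtain ⟨c, hc1, hca, hcb⟩ := hex a (π.1 a)
    have heven : ∀ x y k : Fin chevD4.rank, x ≠ ⟨1, by decide⟩ → y ≠ ⟨1, by decide⟩ →
        Even (chevD4.cartan (k : ℕ) (chevD4.simple (x : ℕ)) + chevD4.cartan (k : ℕ) (chevD4.simple (y : ℕ))) := by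
      decide +kernel
    obtain ⟨z₀, hz₀⟩ : ∃ z₀ : Fin chevD4.rank → Fˣ, z₀ = Pi.mulSingle (M := fun _ => Fˣ) a n := ⟨_, rfl⟩
    have hone : (sysD4.{u}).outDiag ((fun j => z₀ (π.1.symm j)) * (z₀)⁻¹) = 1 := by
      rw [map_mul, map_inv, hπ (z₀), mul_inv_cancel]
    obtain ⟨d, hd⟩ := exists_of_outDiag_eq_one F hone
    have hsq : IsSquare (((fun j => z₀ (π.1.symm j)) * (z₀)⁻¹ : Fin chevD4.rank → Fˣ) (π.1 a) *
        ((fun j => z₀ (π.1.symm j)) * (z₀)⁻¹ : Fin chevD4.rank → Fˣ) c) := by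
      rw [hd, hd, ← Finset.prod_mul_distrib]
      refine Finset.prod_induction _ IsSquare (fun _ _ => IsSquare.mul) IsSquare.one fun k _ => ?_
      rw [← zpow_add]
      exact (heven _ _ k hb1 hc1).isSquare_zpow _
    have hc' : π.1.symm c ≠ a := fun e => hcb (by rw [← e, Equiv.apply_symm_apply])
    simp [hz₀, ha, hca, hc'] at hsq
    obtain ⟨r, hr⟩ := hsq
    exact hν ⟨r, by rw [← hn, hr, Units.val_mul]⟩
  let P := (outLift F).range.subgroupOf (pgo F)
  have hindex : P.index = 4 := by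
    have h := P.card_mul_index
    have hle : (outLift F).range ≤ pgo F := le_sup_right
    rw [Nat.card_congr (Subgroup.subgroupOfEquivOfLe hle).toEquiv,
      ← Nat.card_congr (MonoidHom.ofInjective (outLift_injective F)).toEquiv, card_pgo, hD, card_permGroup] at h
    omega
  have hcore : (MulAction.toPermHom (pgo F) (pgo F ⧸ P)).ker = ⊥ := by
    rw [← Subgroup.normalCore_eq_ker, Subgroup.eq_bot_iff_forall]
    intro x hx
    obtain ⟨π, hπ⟩ := Subgroup.mem_subgroupOf.1 (P.normalCore_le hx)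
    suffices π = 1 by exact Subtype.ext (by rw [← hπ, this, map_one]; rfl)
    refine hfaith π fun z => ?_
    let d : pgo F := ⟨(sysD4.{u}).outDiag z, Subgroup.mem_sup_left ⟨z, rfl⟩⟩
    have hmem : x * d * x⁻¹ * d⁻¹ ∈ P := P.normalCore_le (by
      rw [mul_assoc, mul_assoc]
      exact mul_mem hx (by rw [← mul_assoc]; exact P.normalCore_normal.conj_mem _ (inv_mem hx) d))
    obtain ⟨π', hπ'⟩ := Subgroup.mem_subgroupOf.1 hmem
    have hval : outLift F π' = outLift F π * (sysD4.{u}).outDiag z * (outLift F π)⁻¹ * ((sysD4.{u}).outDiag z)⁻¹ := by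
      rw [hπ', hπ]; rfl
    have h1 := congrArg (sysD4.{u}).outPerm hval
    rw [outPerm_outLift, map_mul, map_mul, map_mul, map_inv, map_inv, outDiag_mem_ker, mul_one, mul_inv_cancel,
      inv_one, one_mul] at h1
    obtain rfl : π' = 1 := Subtype.ext h1
    rw [map_one, eq_comm, mul_inv_eq_one, mul_inv_eq_iff_eq_mul] at hval
    refine mul_right_cancel (b := outLift F π) (Eq.trans ?_ hval)
    show QuotientGroup.mk' _ ((sysD4.{u}).diagHom _) * QuotientGroup.mk' _ (lift F π) = _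
    rw [← map_mul, ← lift_diag, map_mul]
    rfl
  have hinj := (MonoidHom.ker_eq_bot_iff _).1 hcore
  have hQ : Nat.card (pgo F ⧸ P) = 4 := hindex
  haveI : Fintype (pgo F ⧸ P) := Fintype.ofFinite _
  rw [Nat.card_eq_fintype_card] at hQ
  have hbij : Function.Bijective (MulAction.toPermHom (pgo F) (pgo F ⧸ P)) :=
    (Nat.bijective_iff_injective_and_card _).2 ⟨hinj, by
      rw [card_pgo, hD, Nat.card_perm, Nat.card_eq_fintype_card, hQ]; rfl⟩
  exact ⟨e.trans (((MulEquiv.ofBijective _ hbij).trans (Fintype.equivFinOfCardEq hQ).permCongrHom).prodCongr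
    (MulEquiv.refl _))⟩

end CfsgLib.Chev.AutThm.D4
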