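import Cfsg.Agent.Chev.AutThm.CertE8
import Cfsg.Agent.Chev.SimpleCert

/-!
# The automorphism theorem for the seven tabulated types
-/

set_option autoImplicit false

namespace CfsgLib.Chev.AutThm

open Cfsg.Lie CfsgLib.Chev

universe u

theorem decompose_all {F : Type u} [Field F] [Finite F] {D : ChevalleyDatum}
    (hD : D ∈ [chevG2, chevB2, chevD4, chevF4, chevE6, chevE7, chevE8])
    (θ : D.group F ≃* D.group F) :
    ∃ (x : ↥(D.group F)) (d g f : ↥(D.group F) ≃* ↥(D.group F)),
      D.IsDiagonalAut d ∧ D.IsGraphAut g ∧ D.IsFieldAut f ∧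
        ∀ y : ↥(D.group F), θ y = x * d (g (f y)) * x⁻¹ := by
  simp only [List.mem_cons, List.not_mem_nil, or_false] at hD
  rcases hD with rfl | rfl | rfl | rfl | rfl | rfl | rfl
  · exact sysG2.decompose connOK_G2 bondOK_G2 (fun π h => ⟨3, multi_G2 π h⟩) θ
  · exact sysB2.decompose connOK_B2 bondOK_B2 (fun π h => ⟨2, multi_B2 π h⟩) θ
  · exact sysD4.decompose connOK_D4 bondOK_D4 (symCert_of_oneLength one_D4) θ
  · exact sysF4.decompose connOK_F4 bondOK_F4 (fun π h => ⟨2, multi_F4 π h⟩) θ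
  · exact (DataE6.valid.toSys : Sys.{u} chevE6).decompose connOK_E6 bondOK_E6 (symCert_of_oneLength one_E6) θ
  · exact (DataE7.valid.toSys : Sys.{u} chevE7).decompose connOK_E7 bondOK_E7 (symCert_of_oneLength one_E7) θ
  · exact (DataE8.valid.toSys : Sys.{u} chevE8).decompose connOK_E8 bondOK_E8 (symCert_of_oneLength one_E8) θ

end CfsgLib.Chev.AutThm
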