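import Cfsg.Agent.Chev.AutThm.Decompose
import Cfsg.Agent.Chev.InstSmall
import Cfsg.Agent.Chev.ValidE6
import Cfsg.Agent.Chev.ValidE7

/-!
# The certificates of the automorphism theorem for the small tabulated types
-/

set_option autoImplicit false
set_option maxRecDepth 100000

namespace CfsgLib.Chev.AutThm

open Cfsg.Lie CfsgLib.Chev

universe u

/-- All roots of the same length, Cartan integers read off from the bonds. -/
def OneLength (D : ChevalleyDatum) : Prop :=
  (∀ i j : Fin D.rank, i ≠ j → cij D i j = -D.bonds i j ∧ (cij D i j = 0 ∨ cij D i j = -1)) ∧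
    ∀ i : Fin D.rank, D.isLong (D.simple i) = false

instance (D : ChevalleyDatum) : Decidable (OneLength D) := by unfold OneLength; infer_instance

theorem symCert_of_oneLength {D : ChevalleyDatum} (h : OneLength D) (π : Equiv.Perm (Fin D.rank))
    (hπ : D.IsDiagramSymmetry π) : ∃ b, SymCert D π b := by
  have hf : ∀ i, expFlag D π i = false := fun i => by simp [expFlag, h.2 (π i)]
  refine ⟨0, fun i j hij hA => Or.inl ?_, Or.inl hf⟩
  obtain ⟨e, e'⟩ := h.1 i j hij
  have e'' := (h.1 (π i) (π j) fun q => hij (π.injective q)).1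
  have hA1 := e'.resolve_left hA
  refine ⟨hA1, ?_, by rw [hf, hf]⟩
  rw [e'', hπ i j hij, ← e, hA1]

theorem one_D4 : OneLength chevD4 := by decide +kernel
theorem one_E6 : OneLength chevE6 := by decide +kernel
theorem one_E7 : OneLength chevE7 := by decide +kernel

theorem multi_B2 : ∀ π : Equiv.Perm (Fin chevB2.rank),
    (∀ i j : Fin chevB2.rank, i ≠ j → chevB2.bonds (π i) (π j) = chevB2.bonds i j) →
      SymCert chevB2 π 2 := by decide +kernel

theorem multi_G2 : ∀ π : Equiv.Perm (Fin chevG2.rank),
    (∀ i j : Fin chevG2.rank, i ≠ j → chevG2.bonds (π i) (π j) = chevG2.bonds i j) →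
      SymCert chevG2 π 3 := by decide +kernel

theorem multi_F4 : ∀ π : Equiv.Perm (Fin chevF4.rank),
    (∀ i j : Fin chevF4.rank, i ≠ j → chevF4.bonds (π i) (π j) = chevF4.bonds i j) →
      SymCert chevF4 π 2 := by decide +kernel

theorem bondOK_G2 : sysG2.{u}.bondOK = true := by decide +kernel
theorem bondOK_B2 : sysB2.{u}.bondOK = true := by decide +kernel
theorem bondOK_D4 : sysD4.{u}.bondOK = true := by decide +kernel
theorem bondOK_F4 : sysF4.{u}.bondOK = true := by decide +kernel
theorem bondOK_E6 : (DataE6.valid.toSys : Sys.{u} chevE6).bondOK = true := by decide +kernel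
theorem bondOK_E7 : (DataE7.valid.toSys : Sys.{u} chevE7).bondOK = true := by decide +kernel

end CfsgLib.Chev.AutThm
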