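import Cfsg.Agent.Chev.AutThm.Cert
import Cfsg.Agent.Chev.ValidE8

/-!
# The certificates of the automorphism theorem for E₈
-/

set_option autoImplicit false
set_option maxRecDepth 100000

namespace CfsgLib.Chev.AutThm

open Cfsg.Lie CfsgLib.Chev

universe u

theorem one_E8 : OneLength chevE8 := by decide +kernel

theorem bondOK_E8 : (DataE8.valid.toSys : Sys.{u} chevE8).bondOK = true := by decide +kernel

end CfsgLib.Chev.AutThm
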