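import Cfsg.Agent.Chev.AutThm.Syms
import Cfsg.Agent.Chev.AutThm.Cert
import Cfsg.Agent.Chev.SimpleCert
import Cfsg.Agent.Chev.Special.Iso
import Cfsg.Agent.Chev.Special.SpecG2
import Cfsg.Agent.Chev.Special.SpecF4

/-!
# The node permutations of G₂ and F₄
-/

set_option autoImplicit false
set_option maxRecDepth 100000
set_option linter.style.haveILetI false

namespace CfsgLib.Chev.AutThm

open Cfsg.Lie CfsgLib.Chev

universe u

/-- The exceptional isogeny gives a node permutation. -/
theorem special_mem_range {T : Tbl} {D : ChevalleyDatum} {P : Special.Spec} (hV : T.Valid D)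
    (hP : P.Valid T) {F : Type u} [Field F] [Finite F] [Fact P.p.Prime] (hp : CharP F P.p)
    (π : Equiv.Perm (Fin D.rank))
    (hπ : ∀ i : Fin D.rank, P.rbar T (D.simple i) = D.simple (π i) ∧
      P.rbar T (D.neg (D.simple i)) = D.neg (D.simple (π i))) :
    π ∈ ((Tbl.Valid.toSys hV : Sys.{u} D).nodePermHom (F := F)).range := by
  haveI := hp
  have hperf : ∀ x : F, ∃ y : F, y ^ P.p = x := fun x => by
    obtain ⟨y, hy⟩ := (Finite.injective_iff_surjective.1 (frobenius_inj F P.p)) x
    exact ⟨y, by rwa [frobenius_def] at hy⟩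
  refine Sys.mem_range_of_root_map _ (Special.isoEquiv hV hP hp hperf) (P.rbar T)
    (fun r t => t ^ P.lam T r) (fun r hr => ?_) (fun r hr t => Subtype.ext ?_) π hπ
  · rw [hV.linked.nroots] at hr ⊢
    exact ⟨(Special.rbar_spec hP hr).1, (Special.rbar_spec hP hr).2.2.2.2.2⟩
  · rw [Special.isoEquiv_apply]
    exact Special.iso_xU hV hP hp (hV.linked.nroots ▸ hr) t

theorem syms_G2 : (syms chevG2).length = 2 := by decide +kernel
theorem syms_F4 : (syms chevF4).length = 2 := by decide +kernel

/-- The exchange of the two nodes of G₂. -/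
def swapG2 : Equiv.Perm (Fin chevG2.rank) := Fin.revPerm

/-- The reversal of the diagram of F₄. -/
def swapF4 : Equiv.Perm (Fin chevF4.rank) := Fin.revPerm

theorem specG2_simple : ∀ i : Fin chevG2.rank,
    Special.specG2.rbar DataG2.tbl (chevG2.simple i) = chevG2.simple (swapG2 i) ∧
      Special.specG2.rbar DataG2.tbl (chevG2.neg (chevG2.simple i)) =
        chevG2.neg (chevG2.simple (swapG2 i)) := by decide +kernel

theorem specF4_simple : ∀ i : Fin chevF4.rank,
    Special.specF4.rbar DataF4.tbl (chevF4.simple i) = chevF4.simple (swapF4 i) ∧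
      Special.specF4.rbar DataF4.tbl (chevF4.neg (chevF4.simple i)) =
        chevF4.neg (chevF4.simple (swapF4 i)) := by decide +kernel

theorem flag_G2 : ∀ π : Equiv.Perm (Fin chevG2.rank),
    (∀ i j : Fin chevG2.rank, i ≠ j → chevG2.bonds (π i) (π j) = chevG2.bonds i j) →
      π = 1 ∨ ∃ i, expFlag chevG2 π i = true := by decide +kernel

theorem flag_F4 : ∀ π : Equiv.Perm (Fin chevF4.rank),
    (∀ i j : Fin chevF4.rank, i ≠ j → chevF4.bonds (π i) (π j) = chevF4.bonds i j) →
      π = 1 ∨ ∃ i, expFlag chevF4 π i = true := by decide +kernel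

variable (F : Type u) [Field F] [Finite F]

theorem perm_G2 (p : ℕ) [CharP F p] (hq : 3 ≤ Nat.card F) :
    Nat.card (sysG2.{u}.nodePermHom (F := F)).range = if p = 3 then 2 else 1 := by
  split_ifs with hp
  · subst hp
    haveI : Fact (Special.specG2.p).Prime := ⟨Nat.prime_three⟩
    exact sysG2.card_perm_eq_two bondOK_G2 syms_G2
      (special_mem_range DataG2.valid Special.specG2_valid (F := F) ‹CharP F 3› swapG2 specG2_simple)
      (by decide)
  · refine Subgroup.card_eq_one.2 ((Subgroup.eq_bot_iff_forall _).2 fun π hπ => ?_)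
    have hsym : chevG2.IsDiagramSymmetry π := by
      obtain ⟨θ, rfl⟩ := hπ
      exact sysG2.nodePermHom_symmetry bondOK_G2 θ
    refine (flag_G2 π hsym).resolve_right fun hflag => ?_
    rcases sysG2.char_of_perm hπ (multi_G2 π hsym) hflag with h | h
    · exact hp ((ringChar.eq F p).symm.trans h)
    · classical
      have : Nat.card F ≤ 2 := by
        let e : F → Fin 2 := fun x => if h' : x = 0 then 0 else 1
        have hinj : Function.Injective e := by
          intro x y hxy
          rcases h x with rfl | rfl <;> rcases h y with rfl | rfl <;> simp [e] at hxy ⊢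
        simpa using Nat.card_le_card_of_injective e hinj
      omega

theorem perm_F4 (p : ℕ) [CharP F p] :
    Nat.card (sysF4.{u}.nodePermHom (F := F)).range = if p = 2 then 2 else 1 := by
  split_ifs with hp
  · subst hp
    haveI : Fact (Special.specF4.p).Prime := ⟨Nat.prime_two⟩
    exact sysF4.card_perm_eq_two bondOK_F4 syms_F4
      (special_mem_range DataF4.valid Special.specF4_valid (F := F) ‹CharP F 2› swapF4 specF4_simple)
      (by decide)
  · refine Subgroup.card_eq_one.2 ((Subgroup.eq_bot_iff_forall _).2 fun π hπ => ?_)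
    have hsym : chevF4.IsDiagramSymmetry π := by
      obtain ⟨θ, rfl⟩ := hπ
      exact sysF4.nodePermHom_symmetry bondOK_F4 θ
    refine (flag_F4 π hsym).resolve_right fun hflag => ?_
    rcases sysF4.char_of_perm hπ (multi_F4 π hsym) hflag with h | h
    · exact hp ((ringChar.eq F p).symm.trans h)
    · refine hp ((CharP.eq F ‹CharP F p› ?_))
      exact (CharP.charP_iff_prime_eq_zero Nat.prime_two).2 (by
        rcases h ((2 : ℕ) : F) with h2 | h2
        · exact h2
        · exact absurd (show ((2 : ℕ) : F) - 1 = 0 by rw [h2, sub_self]) (by norm_num))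

theorem card_out_G2 [Fintype F] (p f : ℕ) [Fact p.Prime] [CharP F p] (hF : Fintype.card F = p ^ f)
    (hq : 3 ≤ p ^ f) :
    Nat.card (Cfsg.Out (chevG2.group F)) = if p = 3 then 2 * f else f := by
  rw [sysG2.card_out connOK_G2 (multi_G2 1 fun _ _ _ => rfl) torG2 (by decide),
    perm_G2 F p (by rwa [Nat.card_eq_fintype_card, hF]), (ringAut_cyclic_card F hF).2,
    Finset.prod_eq_one fun i _ => by rw [show torG2.d i = 1 from by revert i; decide]; simp]
  split_ifs <;> simp

theorem card_out_F4 [Fintype F] (p f : ℕ) [Fact p.Prime] [CharP F p] (hF : Fintype.card F = p ^ f) :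
    Nat.card (Cfsg.Out (chevF4.group F)) = Nat.gcd 2 p * f := by
  rw [sysF4.card_out connOK_F4 (multi_F4 1 fun _ _ _ => rfl) torF4 (by decide),
    perm_F4 F p, (ringAut_cyclic_card F hF).2,
    Finset.prod_eq_one fun i _ => by rw [show torF4.d i = 1 from by revert i; decide]; simp]
  split_ifs with h
  · subst h; simp
  · rw [((Nat.coprime_primes Nat.prime_two (Fact.out : p.Prime)).2 (Ne.symm h)), one_mul]

end CfsgLib.Chev.AutThm
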