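import Cfsg.Agent.Chev.AutThm.TwOut
import Cfsg.Agent.Chev.Twisted.D4
import Cfsg.Agent.Chev.Twisted.E6

/-!
# The outer automorphism groups of ³D₄(q) and ²E₆(q)
-/

set_option autoImplicit false
set_option maxRecDepth 100000

namespace CfsgLib.Chev.Twisted

open Cfsg.Lie Matrix CfsgLib.Chev

universe u

instance decCommOK {D : ChevalleyDatum} {S : Sys.{u} D} {G : Graph D} {m : ℕ} (O : Orbits S G m)
    (a b : Fin m) : Decidable (O.CommOK a b) := by
  unfold Orbits.CommOK; infer_instance

instance decOwnOK {D : ChevalleyDatum} {S : Sys.{u} D} {G : Graph D} {m : ℕ} (O : Orbits S G m) :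
    Decidable O.OwnOK := by
  unfold Orbits.OwnOK; infer_instance

instance decLink {D : ChevalleyDatum} {S : Sys.{u} D} {G : Graph D} {m : ℕ} (O : Orbits S G m)
    (a b : Fin m) : Decidable (O.Link a b) := by
  unfold Orbits.Link; infer_instance

namespace D4

theorem rigid : (orbits.{u}).Rigid := by
  unfold Orbits.Rigid; decide +kernel

theorem own : (orbits.{u}).OwnOK := by decide +kernel

theorem reach (a : Fin 2) : Relation.ReflTransGen (orbits.{u}).Link a 1 := by
  fin_cases a
  · exact Relation.ReflTransGen.single (show (orbits.{u}).Link 0 1 by decide +kernel)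
  · exact Relation.ReflTransGen.refl

variable {K : Type u} [Field K] [Fintype K]

theorem card_out (p f : ℕ) [Fact p.Prime] [CharP K p] (hK : Fintype.card K = p ^ (3 * f))
    (hf : 1 ≤ f) : Nat.card (Cfsg.Out (twistedD4 K (p ^ f))) = 3 * f := by
  have hq : IsPrimePow (p ^ f) := (Fact.out : p.Prime).isPrimePow.pow (by omega)
  have hK' : Fintype.card K = (p ^ f) ^ 3 := by rw [hK, ← pow_mul, mul_comm]
  have htop : ∀ t : K, (phi hq hK')^[(orbits.{u}).size 1] t = t := fun t => by
    show (phi hq hK')^[3] t = t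
    rw [iterate_frob (phi_apply hq hK'), ← hK', FiniteField.pow_card]
  have h := (orbits.{u}).card_out (phi hq hK') (p ^ f) (hcard hq hK') (twistedD4 K (p ^ f))
    (twisted_eq hq hK') ⟨_, phi_apply hq hK'⟩ rigid own htop reach
  have hT : Nat.card (Orbits.tfix (G := graph) (phi hq hK')) =
      Nat.card ((orbits.{u}).toG (phi hq hK') (p ^ f) (hcard hq hK') (twistedD4 K (p ^ f))
        (twisted_eq hq hK')).H1 :=
    (card_map_of_trivial _ _ fun c hc e => eq_one_of_theta hq hK' hc e).symm
  rw [hT, mul_comm (Nat.card _) (Nat.card (K ≃+* K)), (ringAut_cyclic_card K hK).2] at h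
  have hfin := Sys.finite_GL (D := chevD4) (F := K)
  exact Nat.eq_of_mul_eq_mul_right Nat.card_pos h

end D4

namespace E6

theorem rigid : (orbits.{u}).Rigid := by
  unfold Orbits.Rigid; decide +kernel

theorem own : (orbits.{u}).OwnOK := by decide +kernel

theorem reach (a : Fin 4) : Relation.ReflTransGen (orbits.{u}).Link a 2 := by
  have h12 : Relation.ReflTransGen (orbits.{u}).Link 1 2 :=
    Relation.ReflTransGen.single (show (orbits.{u}).Link 1 2 by decide +kernel)
  fin_cases a
  · exact Relation.ReflTransGen.head (show (orbits.{u}).Link 0 1 by decide +kernel) h12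
  · exact h12
  · exact Relation.ReflTransGen.refl
  · exact Relation.ReflTransGen.single (show (orbits.{u}).Link 3 2 by decide +kernel)

variable {K : Type u} [Field K] [Fintype K]

theorem card_out (p f : ℕ) [Fact p.Prime] [CharP K p] (hK : Fintype.card K = p ^ (2 * f))
    (hf : 1 ≤ f) :
    Nat.card (Cfsg.Out (twistedE6 K (p ^ f))) = 2 * Nat.gcd 3 (p ^ f + 1) * f := by
  have hq : IsPrimePow (p ^ f) := (Fact.out : p.Prime).isPrimePow.pow (by omega)
  have hK' : Fintype.card K = (p ^ f) ^ 2 := by rw [hK, ← pow_mul, mul_comm]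
  have htop : ∀ t : K, (phi hq hK')^[(orbits.{u}).size 2] t = t := fun t => by
    show (phi hq hK')^[2] t = t
    rw [iterate_frob (phi_apply hq hK'), ← hK', FiniteField.pow_card]
  have h : Nat.card (Cfsg.Out (twistedE6 K (p ^ f))) * Nat.card (gdata hq hK').H1 =
      Nat.card (Orbits.tfix (G := graph) (phi hq hK')) * Nat.card (K ≃+* K) :=
    (orbits.{u}).card_out (phi hq hK') (p ^ f) (hcard hq hK') (twistedE6 K (p ^ f))
      (twisted_eq hq hK') ⟨_, phi_apply hq hK'⟩ rigid own htop reach
  have hT : Nat.card (Orbits.tfix (G := graph) (phi hq hK')) =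
      Nat.gcd 3 (p ^ f + 1) * Nat.card (gdata hq hK').H1 := by
    rw [card_H1, (orbits.{u}).card_tfix (phi hq hK'), Fin.prod_univ_four]
    simp only [card_fix_units_pow (phi_apply hq hK') hq.pos (natCard hK') (size_dvd _)]
    show ((p ^ f) ^ 1 - 1) * ((p ^ f) ^ 1 - 1) * ((p ^ f) ^ 2 - 1) * ((p ^ f) ^ 2 - 1) = _
    rw [pow_one]
    ring
  rw [hT, (ringAut_cyclic_card K hK).2,
    show Nat.gcd 3 (p ^ f + 1) * Nat.card (gdata hq hK').H1 * (2 * f) =
      2 * Nat.gcd 3 (p ^ f + 1) * f * Nat.card (gdata hq hK').H1 by ring] at h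
  have hfin := Sys.finite_GL (D := chevE6) (F := K)
  exact Nat.eq_of_mul_eq_mul_right Nat.card_pos h

end E6

end CfsgLib.Chev.Twisted
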