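import Cfsg.Agent.Chev.AutThm.TwRoot

/-!
# Automorphisms of a twisted group whose longest element is `-1`

Up to an inner automorphism every root group of an orbit, its negative and the torus are kept when
the root groups of different orbits have different orders. An automorphism fixing the positive root
groups of the orbits elementwise and keeping the negative ones is trivial.
-/

set_option autoImplicit false

namespace CfsgLib.Chev

open Cfsg.Lie Matrix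

universe u

namespace Twisted

variable {D : ChevalleyDatum} {S : Sys.{u} D} {m : ℕ} {T : WData S m} {K : Type u} [Field K]

/-- The longest element sends every root to its negative. -/
def LongestNeg (T : WData S m) : Prop :=
  ∀ w ∈ T.good, (∀ r, S.Pos r → ¬ S.Pos (w r)) → ∀ r, w r = S.ng r

namespace GData

variable (A : GData T K)

theorem exists_opposite_ng [Finite K] (hw0 : LongestNeg T) : ∃ n : A.G1, (n : GL D.Idx K) ∈ A.N1 ∧
    A.MapsOn (MulAut.conj n) A.U1 A.V1 ∧ A.MapsOn (MulAut.conj n) A.V1 A.U1 ∧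
      ∀ j, ∀ x ∈ A.Xp j, (n : GL D.Idx K) * x * (n : GL D.Idx K)⁻¹ ∈ A.Xn j := by
  obtain ⟨w, hwg, hw⟩ := T.exists_longest
  obtain ⟨M, hM⟩ := T.exists_wT hwg
  obtain ⟨L, hL, hLw⟩ := S.exists_wprod (T.good_le hwg)
  have hn : S.Acts (A.nT M) w := hM ▸ A.nT_acts M
  have hflip : ∀ r : Fin D.nroots, D.nroots / 2 ≤ (r : ℕ) → (w r : ℕ) < D.nroots / 2 :=
    fun r hr => not_le.1 (hw r hr)
  refine ⟨⟨A.nT M, A.nT_mem M⟩, A.nT_mem_N1 M, fun g => ?_, fun g => ?_, fun j x hx => ?_⟩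
  · set n : A.G1 := ⟨A.nT M, A.nT_mem M⟩
    show ((n * g * n⁻¹ : A.G1) : GL D.Idx K) ∈ A.V1 ↔ _
    rw [A.mem_V1_iff, A.mem_U1_iff]
    exact S.conj_eq_negUnipotent hn hflip _
  · set n : A.G1 := ⟨A.nT M, A.nT_mem M⟩
    show ((n * g * n⁻¹ : A.G1) : GL D.Idx K) ∈ A.U1 ↔ _
    rw [A.mem_V1_iff, A.mem_U1_iff]
    exact S.conj_eq_posUnipotent hn hL hLw.symm hflip _
  · exact A.conj_Xp_le (n := ⟨A.nT M, A.nT_mem M⟩) hn
      (fun r hr => by rw [hw0 w hwg hw r, S.ng_ng]; exact hr) hx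

theorem mem_H1_iff [Finite K] (hw0 : LongestNeg T) (g : A.G1) : (g : GL D.Idx K) ∈ A.H1 ↔
    (g : GL D.Idx K) ∈ A.B1 ∧
      ∀ y : A.G1, (y : GL D.Idx K) ∈ A.V1 → ((g * y * g⁻¹ : A.G1) : GL D.Idx K) ∈ A.V1 := by
  obtain ⟨n, hn, hUV, hVU, -⟩ := A.exists_opposite_ng hw0
  have hH : ∀ g : A.G1, (g : GL D.Idx K) ∈ A.H1 →
      ∀ y : A.G1, (y : GL D.Idx K) ∈ A.V1 → ((g * y * g⁻¹ : A.G1) : GL D.Idx K) ∈ A.V1 := by
    intro g hg y hy
    have h1 := (hVU y).2 hy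
    have hh : (n : GL D.Idx K) * g * (n : GL D.Idx K)⁻¹ ∈ A.H1 := by
      rw [← A.N1_inf_diag]
      exact Subgroup.mem_inf.2 ⟨mul_mem (mul_mem hn (A.H1_le_N1 hg)) (inv_mem hn),
        S.mono_conj_diag (A.N1_le_mono hn) (A.H1_diag hg)⟩
    refine (hVU _).1 ?_
    have h2 := A.conj_U1 hh h1
    rw [show MulAut.conj n (g * y * g⁻¹) =
      (n * g * n⁻¹) * MulAut.conj n y * (n * g * n⁻¹)⁻¹ by simp [mul_assoc]]
    exact h2
  refine ⟨fun hg => ⟨A.H1_le_B1 hg, hH g hg⟩, fun ⟨hB, hV⟩ => ?_⟩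
  obtain ⟨u, hu, h, hh, e⟩ := hB
  set uG : A.G1 := ⟨u, A.U1_le hu⟩ with huG
  set hG : A.G1 := ⟨h, A.H1_le hh⟩ with hhG
  have eg : g = uG * hG := Subtype.ext e
  have huV : ∀ y : A.G1, (y : GL D.Idx K) ∈ A.V1 →
      ((uG * y * uG⁻¹ : A.G1) : GL D.Idx K) ∈ A.V1 := by
    intro y hy
    have h1 := hV _ (hH hG⁻¹ (inv_mem hh) y hy)
    rwa [show g * (hG⁻¹ * y * hG⁻¹⁻¹) * g⁻¹ = uG * y * uG⁻¹ by rw [eg]; group] at h1
  have h3 : ((MulAut.conj n uG : A.G1) : GL D.Idx K) ∈ A.B1 := by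
    refine A.mem_B1_of_normalizes (MulAut.conj n uG).2 fun x hx => ?_
    set z := (MulAut.conj n)⁻¹ ⟨x, A.U1_le hx⟩
    have hz : (z : GL D.Idx K) ∈ A.V1 := (hVU.symm _).2 hx
    have h4 := (hVU _).2 (huV z hz)
    rw [map_mul, map_mul, map_inv, MulAut.apply_inv_self] at h4
    exact h4
  have h5 := A.B1_le_borel h3
  have h6 := (Subgroup.mem_inf.1 ((hUV uG).2 hu)).1
  have h7 : ((MulAut.conj n uG : A.G1) : GL D.Idx K) ∈ D.borelSubgroup K ⊓ D.negUnipotent K :=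
    ⟨h5, h6⟩
  rw [S.borel_inf_neg, Subgroup.mem_bot] at h7
  have h8 : uG = 1 := (MulEquiv.map_eq_one_iff (MulAut.conj n)).1 (Subtype.ext h7)
  rw [eg, h8, one_mul]
  exact hh

/-- An automorphism keeping the positive and negative root groups of the orbits and the torus. -/
structure KeepsAll (φ : MulAut A.G1) : Prop where
  pos : A.MapsOn φ A.U1 A.U1
  neg : A.MapsOn φ A.V1 A.V1
  xp : ∀ j, A.MapsOn φ (A.Xp j) (A.Xp j)
  xn : ∀ j, A.MapsOn φ (A.Xn j) (A.Xn j)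
  torus : A.MapsOn φ A.H1 A.H1

theorem keeps_Xn [Finite K] (hlj : Function.Injective T.lj) {φ : MulAut A.G1}
    (hU : A.MapsOn φ A.U1 A.U1) (hV : A.MapsOn φ A.V1 A.V1) (j : Fin m) :
    A.MapsOn φ (A.Xn j) (A.Xn j) := by
  have := Sys.finite_GL (D := D) (F := K)
  obtain ⟨π, hπ⟩ := A.exists_Xn_perm hU hV
  have hc : Nat.card (A.Xn j) = Nat.card (A.Xn (π j)) := Nat.card_congr
    { toFun := fun x => ⟨_, (hπ j ⟨x, A.Xn_le _ x.2⟩).2 x.2⟩
      invFun := fun y => ⟨_, ((hπ j).symm ⟨y, A.Xn_le _ y.2⟩).2 y.2⟩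
      left_inv := fun x => Subtype.ext (congrArg (fun z : A.G1 => (z : GL D.Idx K))
        (MulAut.inv_apply_self _ φ ⟨(x : GL D.Idx K), A.Xn_le _ x.2⟩))
      right_inv := fun y => Subtype.ext (congrArg (fun z : A.G1 => (z : GL D.Idx K))
        (MulAut.apply_inv_self _ φ ⟨(y : GL D.Idx K), A.Xn_le _ y.2⟩)) }
  rw [A.card_Xn, A.card_Xn] at hc
  have e : π j = j := (hlj (Nat.pow_right_injective (A.one_lt_q j) hc)).symm
  simpa [e] using hπ j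

theorem keepsAll_of [Finite K] (hlj : Function.Injective T.lj) (hw0 : LongestNeg T)
    {φ : MulAut A.G1} (hU : A.MapsOn φ A.U1 A.U1) (hV : A.MapsOn φ A.V1 A.V1) : A.KeepsAll φ := by
  have := Sys.finite_GL (D := D) (F := K)
  obtain ⟨n, -, hnU, hnV, hnX⟩ := A.exists_opposite_ng hw0
  set c := MulAut.conj n
  have hcomp : ∀ {X Y : Subgroup (GL D.Idx K)} {X' Y' : Subgroup (GL D.Idx K)},
      A.MapsOn c X X' → A.MapsOn φ X Y → A.MapsOn c Y Y' → A.MapsOn (c * φ * c⁻¹) X' Y' :=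
    fun h1 h2 h3 g => (h3 _).trans ((h2 _).trans (h1.symm g))
  have hψ := A.keeps_Xn hlj (hcomp hnV hV hnV) (hcomp hnU hU hnU)
  have hc : ∀ j, A.MapsOn c (A.Xp j) (A.Xn j) := by
    intro j g
    have hmap : (A.Xp j).map (MulAut.conj (n : GL D.Idx K)).toMonoidHom ≤ A.Xn j := by
      rintro _ ⟨x, hx, rfl⟩
      exact hnX j x hx
    have hcard : Nat.card ((A.Xp j).map (MulAut.conj (n : GL D.Idx K)).toMonoidHom) =
        Nat.card (A.Xn j) := by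
      rw [← Nat.card_congr (Subgroup.equivMapOfInjective _ _
        (MulAut.conj (n : GL D.Idx K)).injective).toEquiv, A.card_Xp, A.card_Xn]
    have heq := Subgroup.eq_of_le_of_card_ge hmap hcard.ge
    show (n : GL D.Idx K) * g * (n : GL D.Idx K)⁻¹ ∈ A.Xn j ↔ _
    rw [← heq]
    exact Subgroup.mem_map_iff_mem (f := (MulAut.conj (n : GL D.Idx K)).toMonoidHom)
      (MulAut.conj (n : GL D.Idx K)).injective
  have hB := A.keeps_B1 hU
  refine ⟨hU, hV, fun j g => ?_, A.keeps_Xn hlj hU hV, fun g => ?_⟩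
  · rw [← hc j (φ g), show c (φ g) = (c * φ * c⁻¹) (c g) by simp [MulAut.mul_apply], hψ j]
    exact hc j g
  · rw [A.mem_H1_iff hw0, A.mem_H1_iff hw0, hB g]
    refine and_congr_right fun _ => ⟨fun h y hy => ?_, fun h y hy => ?_⟩
    · have h1 := h (φ y) ((hV y).2 hy)
      rw [← map_mul, ← map_inv, ← map_mul] at h1
      exact (hV _).1 h1
    · have h1 := (hV _).2 (h _ ((hV.symm y).2 hy))
      rwa [map_mul, map_mul, map_inv, MulAut.apply_inv_self] at h1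

theorem exists_keepsAll [Finite K] (hlj : Function.Injective T.lj) (hw0 : LongestNeg T)
    (θ : MulAut A.G1) : ∃ x : A.G1, A.KeepsAll (MulAut.conj x * θ) := by
  obtain ⟨x, hU, hV⟩ := A.exists_keeps θ
  exact ⟨x, A.keepsAll_of hlj hw0 hU hV⟩

theorem keepsAll_conj [Finite K] (hlj : Function.Injective T.lj) (hw0 : LongestNeg T) (a : A.G1)
    (ha : (a : GL D.Idx K) ∈ A.H1) : A.KeepsAll (MulAut.conj a) := by
  have hH := (A.mem_H1_iff hw0 a).1 ha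
  have hH' := (A.mem_H1_iff hw0 a⁻¹).1 (inv_mem ha)
  refine A.keepsAll_of hlj hw0 (fun g => ⟨fun h => ?_, fun h => A.borel_conj_U1 hH.1 h⟩)
    (fun g => ⟨fun h => ?_, fun h => hH.2 g h⟩)
  · have e : a⁻¹ * MulAut.conj a g * a⁻¹⁻¹ = g := by simp [mul_assoc]
    rw [← e]
    exact A.borel_conj_U1 hH'.1 h
  · have e : a⁻¹ * MulAut.conj a g * a⁻¹⁻¹ = g := by simp [mul_assoc]
    rw [← e]
    exact hH'.2 _ h

/-- An element of `X_{-J}` normalising `X_J` is trivial. -/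
theorem eq_one_of_normalizes_Xp {j : Fin m} {z : GL D.Idx K} (hz : z ∈ A.Xn j)
    (h : ∀ x ∈ A.Xp j, z * x * z⁻¹ ∈ A.Xp j) : z = 1 := by
  obtain ⟨y, hy, rfl⟩ := A.mem_Xn.1 hz
  by_contra hne
  have hy1 : y ≠ 1 := fun e => hne (by rw [e, mul_one, mul_inv_cancel])
  obtain ⟨a, ha, t, ht, c, hc, e⟩ := A.rank1 j y hy hy1
  obtain ⟨x, hx, hx1⟩ := A.Xp_nontrivial j
  have h1 := h (c⁻¹ * x * c) (mul_mem (mul_mem (inv_mem hc) hx) hc)
  rw [e] at h1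
  have h2 : a⁻¹ * (a * (t * A.nJ j) * c * (c⁻¹ * x * c) * (a * (t * A.nJ j) * c)⁻¹) * a ∈ A.U1 :=
    A.Xp_le_U1 j (mul_mem (mul_mem (inv_mem ha) h1) ha)
  have h3 := A.conj_U1 (inv_mem ht) h2
  rw [show t⁻¹ * (a⁻¹ * (a * (t * A.nJ j) * c * (c⁻¹ * x * c) * (a * (t * A.nJ j) * c)⁻¹) * a) *
    t⁻¹⁻¹ = A.nJ j * x * (A.nJ j)⁻¹ by group] at h3
  have h4 : A.nJ j * x * (A.nJ j)⁻¹ ∈ D.posUnipotent K ⊓ D.negUnipotent K :=
    ⟨(Subgroup.mem_inf.1 h3).1, S.uminus_conj_neg (A.nJ_acts j) (Subgroup.mem_inf.1 hx).1⟩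
  rw [S.pos_inf_neg, Subgroup.mem_bot, conj_eq_one_iff] at h4
  exact hx1 h4

/-- An automorphism fixing `X_J` elementwise and keeping `X_{-J}` fixes `n_J`. -/
theorem fix_nG {φ : MulAut A.G1} {j : Fin m} (hXn : A.MapsOn φ (A.Xn j) (A.Xn j))
    (hfix : ∀ x : A.G1, (x : GL D.Idx K) ∈ A.Xp j → φ x = x) : φ (A.nG j) = A.nG j := by
  obtain ⟨a, ha, y, hy, c, hc, -, e⟩ := A.nJ_eq j
  set aG : A.G1 := ⟨a, A.Xp_le j ha⟩
  set cG : A.G1 := ⟨c, A.Xp_le j hc⟩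
  set Y : A.G1 := ⟨_, A.Xn_le j (A.mem_Xn.2 ⟨y, hy, rfl⟩)⟩
  have hYn : (Y : GL D.Idx K) ∈ A.Xn j := A.mem_Xn.2 ⟨y, hy, rfl⟩
  have en : A.nG j = aG * Y * cG := Subtype.ext e
  have hp : φ (A.nG j) = aG * φ Y * cG := by
    rw [en, map_mul, map_mul, hfix aG ha, hfix cG hc]
  have hYY : ((Y⁻¹ * φ Y : A.G1) : GL D.Idx K) ∈ A.Xn j :=
    mul_mem (inv_mem hYn) ((hXn Y).2 hYn)
  have h1 : ((Y⁻¹ * φ Y : A.G1) : GL D.Idx K) = 1 := by
    refine A.eq_one_of_normalizes_Xp hYY fun x hx => ?_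
    set xG : A.G1 := ⟨x, A.Xp_le j hx⟩
    have hx' : ((cG⁻¹ * xG * cG : A.G1) : GL D.Idx K) ∈ A.Xp j :=
      mul_mem (mul_mem (inv_mem hc) hx) hc
    have h2 : ((φ (A.nG j) * (cG⁻¹ * xG * cG) * (φ (A.nG j))⁻¹ : A.G1) : GL D.Idx K) ∈ A.Xn j := by
      have h3 : ((A.nG j * (cG⁻¹ * xG * cG) * (A.nG j)⁻¹ : A.G1) : GL D.Idx K) ∈ A.Xn j :=
        A.mem_Xn.2 ⟨_, hx', rfl⟩
      have h4 := (hXn _).2 h3
      rw [map_mul, map_mul, map_inv, hfix _ hx'] at h4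
      exact h4
    obtain ⟨x', hx'', e'⟩ := A.mem_Xn.1 h2
    have e2 : ((Y⁻¹ * φ Y : A.G1) : GL D.Idx K) * x * ((Y⁻¹ * φ Y : A.G1) : GL D.Idx K)⁻¹ =
        c * x' * c⁻¹ := by
      have e5 : (Y⁻¹ * φ Y) * xG * (Y⁻¹ * φ Y)⁻¹ = cG * ((A.nG j)⁻¹ *
          (φ (A.nG j) * (cG⁻¹ * xG * cG) * (φ (A.nG j))⁻¹) * A.nG j) * cG⁻¹ := by
        rw [hp, en]; group
      have e6 := congrArg Subtype.val e5
      simp only [Subgroup.coe_mul, Subgroup.coe_inv] at e6 e'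
      rw [e'] at e6
      rw [Subgroup.coe_mul, Subgroup.coe_inv]
      refine e6.trans ?_
      show c * ((A.nJ j)⁻¹ * (A.nJ j * x' * (A.nJ j)⁻¹) * A.nJ j) * c⁻¹ = _
      group
    rw [e2]
    exact mul_mem (mul_mem hc hx'') (inv_mem hc)
  rw [hp, en, (inv_mul_eq_one.1 (Subtype.ext h1)).symm]

/-- An automorphism fixing the root groups of the orbits elementwise and keeping the negative
ones is trivial. -/
theorem eq_one_of_fix {φ : MulAut A.G1} (hXn : ∀ j, A.MapsOn φ (A.Xn j) (A.Xn j))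
    (hfix : ∀ j, ∀ x : A.G1, (x : GL D.Idx K) ∈ A.Xp j → φ x = x) : φ = 1 := by
  have htop : (φ.toMonoidHom.eqLocus (MonoidHom.id A.G1)).map A.G1.subtype = A.G1 := by
    refine le_antisymm (Subgroup.map_subtype_le _) (A.gen.trans ((Subgroup.closure_le _).2 ?_))
    rintro g ⟨j, x, hx, rfl | rfl⟩
    · exact ⟨⟨g, A.Xp_le j hx⟩, hfix j ⟨g, A.Xp_le j hx⟩ hx, rfl⟩
    · refine ⟨A.nG j * ⟨x, A.Xp_le j hx⟩ * (A.nG j)⁻¹, ?_, rfl⟩
      show φ _ = _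
      rw [map_mul, map_mul, map_inv, A.fix_nG (hXn j) (hfix j), hfix j ⟨x, A.Xp_le j hx⟩ hx]
      rfl
  refine MulEquiv.ext fun g => ?_
  obtain ⟨y, hy, e⟩ := htop.ge g.2
  rw [show g = y from Subtype.ext e.symm]
  exact hy

end GData

end Twisted

end CfsgLib.Chev
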