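import Cfsg.Agent.Chev.AutThm.TwRelations
import Cfsg.Agent.Chev.AutThm.OuterCount

/-!
# Twisted groups of orbit type: the automorphism theorem and the order of the outer automorphism group
-/

set_option autoImplicit false

namespace CfsgLib.Chev

open Cfsg.Lie Matrix

universe u

namespace Twisted

variable {D : ChevalleyDatum} {S : Sys.{u} D} {G : Graph D} {m : ℕ}

namespace Orbits

variable (O : Orbits S G m) {F : Type u} [Field F] (phi : F →+* F) (q : ℕ)

/-- The twisted tuple with a given first entry. -/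
def tup (j : Fin m) (t : F) : Fin (O.size j) → F := fun i => phi^[(i : ℕ)] t

theorem tw_tup {j : Fin m} {t : F} (ht : phi^[O.size j] t = t) : O.Tw phi j (O.tup phi j t) :=
  fun i => tw_of_iterate ht i

theorem tw_ext {j : Fin m} {c d : Fin (O.size j) → F} (hc : O.Tw phi j c) (hd : O.Tw phi j d)
    (e : c ⟨0, O.size_pos j⟩ = d ⟨0, O.size_pos j⟩) : c = d := by
  funext i
  rw [(iterate_tw (f := phi) c hc (O.size_pos j) i).1,
    (iterate_tw (f := phi) d hd (O.size_pos j) i).1, e]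

theorem tw_fix {j : Fin m} {c : Fin (O.size j) → F} (hc : O.Tw phi j c) :
    phi^[O.size j] (c ⟨0, O.size_pos j⟩) = c ⟨0, O.size_pos j⟩ :=
  (iterate_tw (f := phi) c hc (O.size_pos j) ⟨0, O.size_pos j⟩).2

theorem tup_mul (j : Fin m) (s t : F) :
    O.tup phi j (s * t) = fun i => O.tup phi j s i * O.tup phi j t i :=
  funext fun i => iterate_map_mul phi _ s t

theorem tup_add (j : Fin m) (s t : F) :
    O.tup phi j (s + t) = fun i => O.tup phi j s i + O.tup phi j t i :=
  funext fun i => iterate_map_add phi _ s t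

theorem tup_one (j : Fin m) : O.tup phi j (1 : F) = fun _ => 1 :=
  funext fun _ => iterate_map_one phi _

theorem tup_zero (j : Fin m) : O.tup phi j (0 : F) = fun _ => 0 :=
  funext fun _ => iterate_map_zero phi _

theorem fix_of_dvd {a b : Fin m} (h : O.size a ∣ O.size b) {t : F} (ht : phi^[O.size a] t = t) :
    phi^[O.size b] t = t := by
  obtain ⟨k, hk⟩ := h
  rw [hk, Function.iterate_mul]
  exact Function.iterate_fixed ht k

variable [Finite F]
variable (hcard : ∀ j, Nat.card {c : Fin (O.size j) → F // O.Tw phi j c} = q ^ O.size j)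
  (G1 : Subgroup (GL D.Idx F)) (hG : G1 = O.tgroup phi)

include hG in
theorem closure_xT {N : Subgroup G1}
    (h : ∀ j s c (hc : O.Tw phi j c), (⟨O.xh j s c, hG ▸ O.xh_mem phi j s hc⟩ : G1) ∈ N) :
    N = ⊤ := by
  rw [eq_top_iff]
  rintro ⟨g, hg⟩ -
  have hle : G1 ≤ N.map G1.subtype := by
    conv_lhs => rw [hG]
    rw [tgroup, Subgroup.closure_le]
    rintro x ⟨j, s, c, hc, rfl⟩
    exact ⟨_, h j s c hc, rfl⟩
  obtain ⟨y, hy, e⟩ := hle hg
  rwa [show (⟨g, hg⟩ : G1) = y from Subtype.ext e.symm]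

/-- An automorphism is determined by its effect on the root elements of the orbits. -/
theorem aut_ext {θ θ' : MulAut (O.toG phi q hcard G1 hG).G1}
    (h : ∀ j s c (hc : O.Tw phi j c),
      θ (O.xT phi q hcard G1 hG j s c hc) = θ' (O.xT phi q hcard G1 hG j s c hc)) : θ = θ' := by
  have htop := O.closure_xT phi G1 hG (N := θ.toMonoidHom.eqLocus θ'.toMonoidHom)
    fun j s c hc => h j s c hc
  refine MulEquiv.ext fun x => ?_
  exact (htop ▸ Subgroup.mem_top x : x ∈ θ.toMonoidHom.eqLocus θ'.toMonoidHom)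

/-! ### Diagonal and field automorphisms -/

variable {phi}

omit [Finite F] in
theorem dg_ext_conj_xh (z : Fin D.rank → Fˣ) (j : Fin m) (s : Bool) (c : Fin (O.size j) → F) :
    S.dg (Sys.extVal D F z) * O.xh j s c * (S.dg (Sys.extVal D F z))⁻¹ =
      O.xh j s (fun i => (if s then (z (O.memF j i) : F) else ((z (O.memF j i) : F))⁻¹) * c i) := by
  rw [O.dg_conj_xh]
  congr 1
  funext i
  congr 1
  have e : Sys.extVal D F z (O.mem j i) = z (O.memF j i) := Sys.extVal_apply z (O.memF j i)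
  cases s
  · show ((S.chi _ (D.neg (D.simple (O.mem j i))) : Fˣ) : F) = _
    rw [S.chi_neg _ (S.simple_lt (O.mem_lt j i)), S.chi_simple _ (O.mem_lt j i), e]
    simp
  · show ((S.chi _ (D.simple (O.mem j i)) : Fˣ) : F) = _
    rw [S.chi_simple _ (O.mem_lt j i), e]
    simp

variable (phi)

omit [Finite F] in
include hG in
theorem map_conj_tfix {z : Fin D.rank → Fˣ} (hz : z ∈ tfix (G := G) phi) :
    G1.map (MulAut.conj (S.dg (Sys.extVal D F z))).toMonoidHom = G1 := by
  have key : ∀ z : Fin D.rank → Fˣ, z ∈ tfix (G := G) phi → ∀ x ∈ G1,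
      S.dg (Sys.extVal D F z) * x * (S.dg (Sys.extVal D F z))⁻¹ ∈ G1 := by
    intro z hz x hx
    have hle : G1 ≤ G1.comap (MulAut.conj (S.dg (Sys.extVal D F z))).toMonoidHom := by
      conv_lhs => rw [hG]
      rw [tgroup, Subgroup.closure_le]
      rintro y ⟨j, s, c, hc, rfl⟩
      show S.dg _ * O.xh j s c * (S.dg _)⁻¹ ∈ G1
      rw [O.dg_ext_conj_xh, hG]
      refine O.xh_mem phi j s fun i => ?_
      have e := congrArg Units.val (O.restrict_TwU phi hz j i)
      simp only [Units.coe_map, MonoidHom.coe_coe] at e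
      cases s <;> simp [e, hc i, map_inv₀]
    exact hle hx
  refine le_antisymm ?_ fun x hx => ?_
  · rintro _ ⟨x, hx, rfl⟩
    exact key z hz x hx
  · refine ⟨(S.dg (Sys.extVal D F z))⁻¹ * x * S.dg (Sys.extVal D F z), ?_, by simp [mul_assoc]⟩
    have h := key z⁻¹ (inv_mem hz) x hx
    rw [map_inv, show S.dg ((Sys.extVal D F z)⁻¹) = (S.dg (Sys.extVal D F z))⁻¹ from
      map_inv S.dgHom _, inv_inv] at h
    exact h

/-- Conjugation by a twisted diagonal element. -/
noncomputable def tDiag : tfix (G := G) phi →* MulAut (O.toG phi q hcard G1 hG).G1 :=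
  MonoidHom.mk' (fun z => ((MulAut.conj (S.dg (Sys.extVal D F z.1))).subgroupMap G1).trans
    (MulEquiv.subgroupCongr (O.map_conj_tfix phi G1 hG z.2))) fun z z' => by
    refine MulEquiv.ext fun x => Subtype.ext ?_
    show S.dg (Sys.extVal D F (z.1 * z'.1)) * (x : GL D.Idx F) *
      (S.dg (Sys.extVal D F (z.1 * z'.1)))⁻¹ = S.dg (Sys.extVal D F z.1) *
        (S.dg (Sys.extVal D F z'.1) * (x : GL D.Idx F) * (S.dg (Sys.extVal D F z'.1))⁻¹) *
          (S.dg (Sys.extVal D F z.1))⁻¹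
    rw [map_mul, S.dg_mul]; group

theorem coe_tDiag (z : tfix (G := G) phi) (x : (O.toG phi q hcard G1 hG).G1) :
    ((O.tDiag phi q hcard G1 hG z x : (O.toG phi q hcard G1 hG).G1) : GL D.Idx F) =
      S.dg (Sys.extVal D F z.1) * x * (S.dg (Sys.extVal D F z.1))⁻¹ := rfl

theorem tDiag_xT (z : tfix (G := G) phi) {j : Fin m} {s : Bool} {c : Fin (O.size j) → F}
    (hc : O.Tw phi j c) :
    ((O.tDiag phi q hcard G1 hG z (O.xT phi q hcard G1 hG j s c hc) :
      (O.toG phi q hcard G1 hG).G1) : GL D.Idx F) = O.xh j s (fun i =>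
        (if s then (z.1 (O.memF j i) : F) else ((z.1 (O.memF j i) : F))⁻¹) * c i) :=
  O.dg_ext_conj_xh z.1 j s c

omit [Finite F] in
theorem glMap_xh (σ : F →+* F) (j : Fin m) (s : Bool) (c : Fin (O.size j) → F) :
    glMap D σ (O.xh j s c) = O.xh j s (fun i => σ (c i)) := by
  rw [O.xh_prod, map_list_prod, List.map_map, O.xh_prod]
  congr 1
  exact List.map_congr_left fun i _ => S.glMap_xU σ _ _

variable {phi} (hphi : ∃ n : ℕ, ∀ t, phi t = t ^ n)

omit [Finite F] in
include hphi in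
theorem comm_phi (σ : F →+* F) (t : F) : σ (phi t) = phi (σ t) := by
  obtain ⟨n, hn⟩ := hphi
  rw [hn, hn, map_pow]

omit [Finite F] in
include hphi hG in
theorem map_field (σ : F ≃+* F) : G1.map (glMap D (σ : F →+* F)) = G1 := by
  refine le_antisymm ?_ ?_
  · rw [Subgroup.map_le_iff_le_comap]
    conv_lhs => rw [hG]
    rw [tgroup, Subgroup.closure_le]
    rintro x ⟨j, s, c, hc, rfl⟩
    show glMap D _ (O.xh j s c) ∈ G1
    rw [O.glMap_xh, hG]
    exact O.xh_mem phi j s fun i => by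
      rw [hc i]; exact comm_phi hphi (σ : F →+* F) _
  · conv_lhs => rw [hG]
    rw [tgroup, Subgroup.closure_le]
    rintro x ⟨j, s, c, hc, rfl⟩
    refine ⟨O.xh j s (fun i => σ.symm (c i)), ?_, ?_⟩
    · rw [hG]
      exact O.xh_mem phi j s fun i => by
        rw [hc i]; exact comm_phi hphi (σ.symm : F →+* F) _
    · rw [O.glMap_xh]; simp

variable (phi)

/-- Field automorphisms of the twisted group. -/
noncomputable def tField : (F ≃+* F) →* MulAut (O.toG phi q hcard G1 hG).G1 :=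
  MonoidHom.mk' (fun σ => (G1.equivMapOfInjective _ (glMap_injective D (σ : F →+* F))).trans
    (MulEquiv.subgroupCongr (O.map_field G1 hG hphi σ))) fun σ τ => by
    refine MulEquiv.ext fun x => Subtype.ext (Units.ext ?_)
    show ((x : GL D.Idx F) : Matrix D.Idx D.Idx F).map ((σ * τ : F ≃+* F) : F →+* F) =
      (((x : GL D.Idx F) : Matrix D.Idx D.Idx F).map (τ : F →+* F)).map (σ : F →+* F)
    rw [Matrix.map_map]
    rfl

theorem coe_tField (σ : F ≃+* F) (x : (O.toG phi q hcard G1 hG).G1) :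
    ((O.tField phi q hcard G1 hG hphi σ x : (O.toG phi q hcard G1 hG).G1) : GL D.Idx F) =
      glMap D (σ : F →+* F) x := rfl

theorem tField_xT (σ : F ≃+* F) {j : Fin m} {s : Bool} {c : Fin (O.size j) → F}
    (hc : O.Tw phi j c) :
    ((O.tField phi q hcard G1 hG hphi σ (O.xT phi q hcard G1 hG j s c hc) :
      (O.toG phi q hcard G1 hG).G1) : GL D.Idx F) = O.xh j s (fun i => σ (c i)) :=
  O.glMap_xh _ j s c

/-! ### The automorphism theorem -/

namespace TwStd

variable {O phi q hcard G1 hG} {θ : MulAut (O.toG phi q hcard G1 hG).G1}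
  {f g : (j : Fin m) → (Fin (O.size j) → F) → (Fin (O.size j) → F)}

theorem exists_normal (h : O.TwStd phi q hcard G1 hG θ f g) :
    ∃ (z : tfix (G := G) phi) (f' g' : (j : Fin m) → (Fin (O.size j) → F) → (Fin (O.size j) → F)),
      O.TwStd phi q hcard G1 hG (O.tDiag phi q hcard G1 hG z * θ) f' g' ∧
        ∀ j, f' j (fun _ => 1) = fun _ => 1 := by
  have hu : ∀ j, O.TwU phi j (fun _ => (1 : Fˣ)) := fun j _ => by simp
  let u : ∀ j, Fin (O.size j) → Fˣ := fun j i => (h.fU (hu j) i)⁻¹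
  have hu' : ∀ j, O.TwU phi j (u j) := fun j i => by
    show (h.fU (hu j) (rotE _ i))⁻¹ = _
    rw [h.fU_twU (hu j) i, ← map_inv]
  let z : tfix (G := G) phi :=
    ⟨∏ j, O.ext0 j (u j), Subgroup.prod_mem _ fun j _ => O.ext0_mem_tfix phi (hu' j)⟩
  have hz : ∀ j i, z.1 (O.memF j i) = u j i := by
    intro j i
    show (∏ k, O.ext0 k (u k)) (O.memF j i) = _
    rw [Finset.prod_apply, Finset.prod_eq_single_of_mem j (Finset.mem_univ _), O.ext0_mem]
    intro k _ hk
    exact O.ext0_of_ne k _ (by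
      show O.ob (O.mem j _) ≠ k
      rw [O.mem_ob]; exact Ne.symm hk)
  refine ⟨z, fun j c i => (z.1 (O.memF j i) : F) * f j c i,
    fun j c i => ((z.1 (O.memF j i) : F))⁻¹ * g j c i,
    ⟨fun j c hc => ?_, fun j c hc => ?_, fun j c hc i => ?_, fun j c hc i => ?_, fun j c hc => ?_⟩,
    fun j => funext fun i => ?_⟩
  · rw [MulAut.mul_apply, coe_tDiag, h.pos j c hc, O.dg_ext_conj_xh]
    simp
  · rw [MulAut.mul_apply, coe_tDiag, h.neg j c hc, O.dg_ext_conj_xh]
    simp
  · have e := congrArg Units.val (O.restrict_TwU phi z.2 j i)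
    simp only [Units.coe_map, MonoidHom.coe_coe] at e
    simp [e, h.twf j c hc i]
  · have e := congrArg Units.val (O.restrict_TwU phi z.2 j i)
    simp only [Units.coe_map, MonoidHom.coe_coe] at e
    simp [e, h.twg j c hc i, map_inv₀]
  · obtain ⟨d, hd, e⟩ := h.surjf j (fun i => ((z.1 (O.memF j i) : F))⁻¹ * c i) fun i => by
      have e := congrArg Units.val (O.restrict_TwU phi z.2 j i)
      simp only [Units.coe_map, MonoidHom.coe_coe] at e
      simp [e, hc i, map_inv₀]
    exact ⟨d, hd, funext fun i => by simp [e]⟩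
  · simp only [hz, u, fU, Units.val_inv_eq_inv_val, Units.val_mk0, Units.val_one]
    exact inv_mul_cancel₀ (h.f_ne_zero (O.tw_one phi j) (fun _ => one_ne_zero) i)

variable (h : O.TwStd phi q hcard G1 hG θ f g) (h1 : ∀ j, f j (fun _ => 1) = fun _ => 1)
  (hown : O.OwnOK)

include h

/-- The scalar map of an orbit. -/
def scal (_h : O.TwStd phi q hcard G1 hG θ f g) (j : Fin m) (t : F) : F :=
  f j (O.tup phi j t) ⟨0, O.size_pos j⟩

theorem scal_zero (j : Fin m) : h.scal j 0 = 0 := by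
  rw [scal, O.tup_zero, h.f_zero]

include h1 hown

theorem scal_mul {j : Fin m} {s t : F} (hs : phi^[O.size j] s = s) (ht : phi^[O.size j] t = t) :
    h.scal j (s * t) = h.scal j s * h.scal j t := by
  rw [scal, O.tup_mul, h.f_mul h1 hown (O.tw_tup phi hs) (O.tw_tup phi ht)]
  rfl

theorem scal_link {a b : Fin m} (hl : O.Link a b) {t : F} (ht : phi^[O.size a] t = t) :
    h.scal b t = h.scal a t := by
  rcases eq_or_ne t 0 with rfl | ht0
  · rw [h.scal_zero, h.scal_zero]
  have htb := O.fix_of_dvd phi hl.1 ht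
  have hne : ∀ i : Fin (O.size a), O.tup phi a t i ≠ 0 := fun i e =>
    ht0 ((phi.injective.iterate _) (e.trans (iterate_map_zero phi _).symm))
  let u : Fin (O.size a) → Fˣ := fun i => Units.mk0 _ (hne i)
  have hu : O.TwU phi a u := fun i => Units.ext (O.tw_tup phi ht i)
  have hti : phi^[O.size b] t⁻¹ = t⁻¹ := by
    have e : phi^[O.size b] (t * t⁻¹) = phi^[O.size b] t * phi^[O.size b] t⁻¹ :=
      iterate_map_mul phi _ _ _
    rw [mul_inv_cancel₀ ht0, iterate_map_one, htb] at e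
    exact eq_inv_of_mul_eq_one_right e.symm
  obtain ⟨hc', e⟩ := h.rel h1 hown a b hu (O.tw_one phi b)
  have hN : ∀ v : Fin (O.size a) → Fˣ,
      O.tN a b v ⟨0, O.size_pos b⟩ = (v ⟨0, O.size_pos a⟩)⁻¹ := by
    intro v
    rw [tN, Finset.prod_eq_single_of_mem ⟨0, O.size_pos a⟩ (Finset.mem_univ _), hl.2, if_pos rfl,
      _root_.zpow_neg_one]
    intro l _ hl'
    rw [hl.2, if_neg fun e => hl' (Fin.ext e), _root_.zpow_zero]
  have harg : (fun i => (O.tN a b u i : F) * 1) = O.tup phi b t⁻¹ := by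
    refine O.tw_ext phi hc' (O.tw_tup phi hti) ?_
    show (O.tN a b u ⟨0, O.size_pos b⟩ : F) * 1 = t⁻¹
    rw [hN, mul_one, Units.val_inv_eq_inv_val]
    rfl
  have e0 := congrFun e ⟨0, O.size_pos b⟩
  rw [harg] at e0
  have e1 : h.scal b t⁻¹ = (h.scal a t)⁻¹ := by
    refine e0.trans ?_
    simp [hN, h1, fU, u, scal]
  have e2 := h.scal_mul h1 hown htb hti
  rw [mul_inv_cancel₀ ht0, e1] at e2
  have e3 : h.scal b 1 = 1 := by rw [scal, O.tup_one, h1]
  rw [e3] at e2
  exact (mul_inv_eq_one₀ (fun e => by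
    rw [e, _root_.inv_zero, mul_zero] at e2; exact one_ne_zero e2)).1 e2.symm

theorem scal_reach {top a : Fin m} (hr : Relation.ReflTransGen O.Link a top) :
    ∀ {t : F}, phi^[O.size a] t = t → h.scal top t = h.scal a t ∧ phi^[O.size top] t = t := by
  induction hr with
  | refl => exact fun ht => ⟨rfl, ht⟩
  | tail _ hl ih =>
    intro t ht
    obtain ⟨e, ht'⟩ := ih ht
    exact ⟨(h.scal_link h1 hown hl ht').trans e, O.fix_of_dvd phi hl.1 ht'⟩

/-- A normalised automorphism acts as a field automorphism. -/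
theorem exists_field (hphi : ∃ n : ℕ, ∀ t, phi t = t ^ n) {top : Fin m}
    (htop : ∀ t : F, phi^[O.size top] t = t) (hreach : ∀ a, Relation.ReflTransGen O.Link a top) :
    ∃ σ : F ≃+* F, θ = O.tField phi q hcard G1 hG hphi σ := by
  have hinj : Function.Injective (h.scal top) := fun s t e => by
    have e' : f top (O.tup phi top s) = f top (O.tup phi top t) :=
      O.tw_ext phi (h.twf _ _ (O.tw_tup phi (htop s))) (h.twf _ _ (O.tw_tup phi (htop t))) e
    exact congrFun (h.f_inj (O.tw_tup phi (htop s)) (O.tw_tup phi (htop t)) e') ⟨0, O.size_pos top⟩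
  let σ : F ≃+* F :=
    { toEquiv := Equiv.ofBijective (h.scal top) (Finite.injective_iff_bijective.1 hinj)
      map_mul' := fun s t => h.scal_mul h1 hown (htop s) (htop t)
      map_add' := fun s t => by
        show h.scal top (s + t) = h.scal top s + h.scal top t
        rw [scal, O.tup_add, h.f_add (O.tw_tup phi (htop s)) (O.tw_tup phi (htop t))]
        rfl }
  refine ⟨σ, ?_⟩
  have hf : ∀ (j : Fin m) c, O.Tw phi j c → f j c = fun i => σ (c i) := by
    intro j c hc
    refine O.tw_ext phi (h.twf j c hc) (fun i => by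
      rw [hc i]; exact comm_phi hphi (σ : F →+* F) _) ?_
    show f j c _ = h.scal top (c _)
    rw [(h.scal_reach h1 hown (hreach j) (O.tw_fix phi hc)).1, scal]
    congr 1
    exact O.tw_ext phi hc (O.tw_tup phi (O.tw_fix phi hc)) rfl
  refine O.aut_ext phi q hcard G1 hG fun j s c hc => Subtype.ext ?_
  rw [tField_xT]
  cases s
  · rw [h.neg j c hc]
    congr 1
    rcases O.tw_cases phi hc with rfl | hne
    · have h0 : g j (fun _ => (0 : F)) = fun _ => 0 := by
        funext i
        have := congrFun (h.g_add (O.tw_zero phi j) (O.tw_zero phi j)) i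
        simpa using this
      simp [h0]
    let u : Fin (O.size j) → Fˣ := fun i => -(Units.mk0 _ (hne i))⁻¹
    have hu : O.TwU phi j u := fun i => Units.ext (by simp [u, hc i, map_inv₀])
    have e := h.g_eq hown hu
    rw [show (fun i => -((u i : F))⁻¹) = c from funext fun i => by simp [u, inv_neg]] at e
    rw [e]
    funext i
    show -(f j (fun a => (u a : F)) i)⁻¹ = _
    rw [hf j _ (TwU.coe O phi hu)]
    simp [u, inv_neg]
  · rw [h.pos j c hc, hf j c hc]

end TwStd

variable (hr : O.Rigid) (hown : O.OwnOK) {top : Fin m} (htop : ∀ t : F, phi^[O.size top] t = t)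
  (hreach : ∀ a, Relation.ReflTransGen O.Link a top)

include hr hown htop hreach

/-- Every automorphism is a product of an inner, a diagonal and a field automorphism. -/
theorem exists_decomp (θ : MulAut (O.toG phi q hcard G1 hG).G1) :
    ∃ (x : (O.toG phi q hcard G1 hG).G1) (z : tfix (G := G) phi) (σ : F ≃+* F),
      θ = MulAut.conj x * O.tDiag phi q hcard G1 hG z * O.tField phi q hcard G1 hG hphi σ := by
  obtain ⟨x, f, g, h⟩ := O.exists_std phi q hcard G1 hG hr θ
  obtain ⟨z, f', g', h', h1⟩ := h.exists_normal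
  obtain ⟨σ, hσ⟩ := h'.exists_field h1 hown hphi htop hreach
  refine ⟨x⁻¹, z⁻¹, σ, ?_⟩
  rw [← hσ, map_inv, map_inv, mul_assoc, inv_mul_cancel_left, inv_mul_cancel_left]

set_option maxHeartbeats 1000000 in
omit hr hown hreach in
/-- A standard inner automorphism comes from `H¹`. -/
theorem inner_eq {z : tfix (G := G) phi} {σ : F ≃+* F} {y : (O.toG phi q hcard G1 hG).G1}
    (e : O.tDiag phi q hcard G1 hG z * O.tField phi q hcard G1 hG hphi σ = MulAut.conj y) :
    σ = 1 ∧ (y : GL D.Idx F) = S.dg (Sys.extVal D F z.1) ∧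
      (y : GL D.Idx F) ∈ (O.toG phi q hcard G1 hG).H1 := by
  have hval : ∀ x : (O.toG phi q hcard G1 hG).G1, (y : GL D.Idx F) * x * (y : GL D.Idx F)⁻¹ =
      S.dg (Sys.extVal D F z.1) * glMap D (σ : F →+* F) x * (S.dg (Sys.extVal D F z.1))⁻¹ := fun x => by
    have h := congrArg (fun φ : MulAut (O.toG phi q hcard G1 hG).G1 =>
      ((φ x : (O.toG phi q hcard G1 hG).G1) : GL D.Idx F)) e
    simpa only [MulAut.mul_apply, MulAut.conj_apply, coe_tDiag, coe_tField, Subgroup.coe_mul,
      Subgroup.coe_inv] using h.symm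
  have hyU : ∀ x ∈ (O.toG phi q hcard G1 hG).U1,
      (y : GL D.Idx F) * x * (y : GL D.Idx F)⁻¹ ∈ (O.toG phi q hcard G1 hG).U1 := by
    intro x hx
    have hpos : (y : GL D.Idx F) * x * (y : GL D.Idx F)⁻¹ ∈ D.posUnipotent F := by
      rw [show (y : GL D.Idx F) * x * (y : GL D.Idx F)⁻¹ = _ from
        hval ⟨x, (O.toG phi q hcard G1 hG).U1_le hx⟩]
      exact S.dg_conj_pos _ (S.glMap_pos _ (Subgroup.mem_inf.1 hx).1)
    exact Subgroup.mem_inf.2 ⟨hpos, (O.toG phi q hcard G1 hG).G1_le_Fx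
      (mul_mem (mul_mem y.2 ((O.toG phi q hcard G1 hG).U1_le hx)) (inv_mem y.2))⟩
  have hnegmap : ∀ x ∈ D.negUnipotent F,
      S.dg (Sys.extVal D F z.1) * glMap D (σ : F →+* F) x * (S.dg (Sys.extVal D F z.1))⁻¹ ∈
        D.negUnipotent F := by
    intro x hx
    have hle : D.negUnipotent F ≤ (D.negUnipotent F).comap
        ((MulAut.conj (S.dg (Sys.extVal D F z.1))).toMonoidHom.comp (glMap D (σ : F →+* F))) := by
      rw [ChevalleyDatum.negUnipotent, Subgroup.closure_le]
      rintro v ⟨r, t, hr, hv⟩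
      show S.dg _ * glMap D _ v * (S.dg _)⁻¹ ∈ D.negUnipotent F
      rw [S.eq_xU hv, S.glMap_xU, S.dg_conj_xU _ hr.1]
      exact Subgroup.subset_closure ⟨r, _, hr, rfl⟩
    exact hle hx
  have hyB := (O.toG phi q hcard G1 hG).mem_B1_of_normalizes y.2 hyU
  obtain ⟨u, hu, d, hd, ey⟩ := hyB
  obtain ⟨w, hwg, hw0⟩ := O.toW.exists_longest
  obtain ⟨M, hM⟩ := O.toW.exists_wT hwg
  let n : (O.toG phi q hcard G1 hG).G1 := ⟨(O.toG phi q hcard G1 hG).nT M, (O.toG phi q hcard G1 hG).nT_mem M⟩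
  have hnmono : (n : GL D.Idx F) ∈ D.monomialSubgroup F := (O.toG phi q hcard G1 hG).nT_mono M
  have hn : S.Acts (n : GL D.Idx F) w := hM ▸ (O.toG phi q hcard G1 hG).nT_acts M
  have hflip : ∀ r : Fin D.nroots, D.nroots / 2 ≤ (r : ℕ) → (w r : ℕ) < D.nroots / 2 :=
    fun r hr => not_le.1 (hw0 r hr)
  have huG := (O.toG phi q hcard G1 hG).U1_le hu
  have huV : ∀ x : (O.toG phi q hcard G1 hG).G1, (x : GL D.Idx F) ∈ D.negUnipotent F →
      u * x * u⁻¹ ∈ D.negUnipotent F := by
    intro x hx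
    obtain ⟨w', hw'⟩ := S.exists_dg ((O.toG phi q hcard G1 hG).H1_diag hd)
    set x' : (O.toG phi q hcard G1 hG).G1 := (⟨d, (O.toG phi q hcard G1 hG).H1_le hd⟩)⁻¹ * x * ⟨d, (O.toG phi q hcard G1 hG).H1_le hd⟩
    have hx' : (x' : GL D.Idx F) ∈ D.negUnipotent F := by
      have hle : D.negUnipotent F ≤
          (D.negUnipotent F).comap (MulAut.conj d⁻¹).toMonoidHom := by
        rw [ChevalleyDatum.negUnipotent, Subgroup.closure_le]
        rintro v ⟨r, t, hr, hv⟩
        show d⁻¹ * v * d⁻¹⁻¹ ∈ D.negUnipotent F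
        rw [S.eq_xU hv, hw', show (S.dg w')⁻¹ = S.dg w'⁻¹ from (map_inv S.dgHom w').symm,
          S.dg_conj_xU _ hr.1]
        exact Subgroup.subset_closure ⟨r, _, hr, rfl⟩
      have := hle hx
      simpa [x'] using this
    have h2 := hnegmap _ hx'
    rw [← hval, ey] at h2
    rwa [show u * d * (x' : GL D.Idx F) * (u * d)⁻¹ = u * x * u⁻¹ by
      simp only [x', Subgroup.coe_mul, Subgroup.coe_inv]; group] at h2
  have hu1 : u = 1 := by
    have hvB : (n : GL D.Idx F)⁻¹ * u * n ∈ (O.toG phi q hcard G1 hG).B1 := by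
      refine (O.toG phi q hcard G1 hG).mem_B1_of_normalizes (mul_mem (mul_mem (inv_mem n.2) huG) n.2) fun x hx => ?_
      set xG : (O.toG phi q hcard G1 hG).G1 := ⟨x, (O.toG phi q hcard G1 hG).U1_le hx⟩
      have h1 := (S.conj_eq_negUnipotent hn hflip x).2 (Subgroup.mem_inf.1 hx).1
      have h2 := huV (n * xG * n⁻¹) h1
      refine Subgroup.mem_inf.2 ⟨?_, (O.toG phi q hcard G1 hG).G1_le_Fx (mul_mem
        (mul_mem (mul_mem (mul_mem (inv_mem n.2) huG) n.2) ((O.toG phi q hcard G1 hG).U1_le hx))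
        (inv_mem (mul_mem (mul_mem (inv_mem n.2) huG) n.2)))⟩
      rw [← S.conj_eq_negUnipotent hn hflip]
      simp only [Subgroup.coe_mul, Subgroup.coe_inv, xG] at h2
      rwa [show (n : GL D.Idx F) * ((n : GL D.Idx F)⁻¹ * u * (n : GL D.Idx F) * x *
          ((n : GL D.Idx F)⁻¹ * u * (n : GL D.Idx F))⁻¹) * (n : GL D.Idx F)⁻¹ =
        u * ((n : GL D.Idx F) * x * (n : GL D.Idx F)⁻¹) * u⁻¹ by group]
    obtain ⟨v, hv, h', hh', ev⟩ := hvB
    have h3 : (n : GL D.Idx F) * h' * (n : GL D.Idx F)⁻¹ ∈ D.diagonalSubgroup F := by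
      exact S.mono_conj_diag hnmono ((O.toG phi q hcard G1 hG).H1_diag hh')
    have h4 : (n : GL D.Idx F) * v * (n : GL D.Idx F)⁻¹ ∈
        D.borelSubgroup F ⊓ D.negUnipotent F := by
      refine Subgroup.mem_inf.2 ⟨?_, (S.conj_eq_negUnipotent hn hflip v).2 (Subgroup.mem_inf.1 hv).1⟩
      have := mul_mem (Subgroup.mem_sup_left (Subgroup.mem_inf.1 hu).1 : u ∈ D.borelSubgroup F)
        (inv_mem (Subgroup.mem_sup_right h3))
      rwa [show u = (n : GL D.Idx F) * ((n : GL D.Idx F)⁻¹ * u * n) * (n : GL D.Idx F)⁻¹ by group,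
        ev, show (n : GL D.Idx F) * (v * h') * (n : GL D.Idx F)⁻¹ *
          ((n : GL D.Idx F) * h' * (n : GL D.Idx F)⁻¹)⁻¹ =
            (n : GL D.Idx F) * v * (n : GL D.Idx F)⁻¹ by group] at this
    rw [S.borel_inf_neg, Subgroup.mem_bot, conj_eq_one_iff] at h4
    rw [h4, one_mul] at ev
    have h5 : u ∈ D.posUnipotent F ⊓ D.diagonalSubgroup F :=
      ⟨(Subgroup.mem_inf.1 hu).1, by
        rwa [show u = (n : GL D.Idx F) * ((n : GL D.Idx F)⁻¹ * u * n) * (n : GL D.Idx F)⁻¹ by group,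
          ev]⟩
    rwa [S.pos_inf_diag, Subgroup.mem_bot] at h5
  rw [hu1, one_mul] at ey
  obtain ⟨w', hw'⟩ := S.exists_dg ((O.toG phi q hcard G1 hG).H1_diag hd)
  have key : ∀ (j : Fin m) (t : F), phi^[O.size j] t = t →
      (w' (O.mem j ⟨0, O.size_pos j⟩) : F) * t =
        (z.1 (O.memF j ⟨0, O.size_pos j⟩) : F) * σ t := by
    intro j t ht
    have h := hval (O.xT phi q hcard G1 hG j true _ (O.tw_tup phi ht))
    rw [ey, hw', coe_xT, O.glMap_xh, O.dg_conj_xh, O.dg_ext_conj_xh] at h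
    have h' := congrFun (O.xh_inj j h) ⟨0, O.size_pos j⟩
    simp only [if_true] at h'
    rw [show O.rt j true ⟨0, O.size_pos j⟩ = D.simple (O.mem j ⟨0, O.size_pos j⟩) from rfl,
      S.chi_simple _ (O.mem_lt j _)] at h'
    exact h'
  have hσ : σ = 1 := by
    refine RingEquiv.ext fun t => ?_
    have e1 := key top 1 (iterate_map_one phi _)
    rw [map_one, mul_one, mul_one] at e1
    have e2 := key top t (htop t)
    rw [e1] at e2
    exact (mul_left_cancel₀ (Units.ne_zero _) e2).symm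
  refine ⟨hσ, ?_, ey ▸ hd⟩
  rw [ey, hw']
  refine S.dg_congr fun i hi => ?_
  obtain ⟨a, ha⟩ := O.ob_mem i hi
  have hall : ∀ (j : Fin m) (a : Fin (O.size j)),
      (w' (O.mem j a) : F) = (z.1 (O.memF j a) : F) := by
    intro j a
    have h := hval (O.xT phi q hcard G1 hG j true _ (O.tw_one phi j))
    rw [ey, hw', coe_xT, O.glMap_xh, O.dg_conj_xh, O.dg_ext_conj_xh] at h
    have h' := congrFun (O.xh_inj j h) a
    simp only [if_true, map_one, mul_one] at h'
    rwa [show O.rt j true a = D.simple (O.mem j a) from rfl, S.chi_simple _ (O.mem_lt j a)] at h'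
  refine Units.ext ?_
  rw [← ha, show Sys.extVal D F z.1 (O.mem (O.ob i) a) = z.1 (O.memF (O.ob i) a) from
    Sys.extVal_apply z.1 (O.memF (O.ob i) a)]
  exact hall _ a

include hphi in
/-- `|Out| · |H¹| = |T| · |Aut F|`. -/
theorem card_out :
    Nat.card (Cfsg.Out (O.toG phi q hcard G1 hG).G1) * Nat.card (O.toG phi q hcard G1 hG).H1 =
      Nat.card (tfix (G := G) phi) * Nat.card (F ≃+* F) := by
  set A := O.toG phi q hcard G1 hG
  set dH : tfix (G := G) phi →* Cfsg.Out A.G1 :=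
    (QuotientGroup.mk' _).comp (O.tDiag phi q hcard G1 hG) with hdH
  set fH : (F ≃+* F) →* Cfsg.Out A.G1 :=
    (QuotientGroup.mk' _).comp (O.tField phi q hcard G1 hG hphi) with hfH
  have hinner := fun {z σ y} => O.inner_eq phi q hcard G1 hG hphi htop (z := z) (σ := σ) (y := y)
  have hfinj : Function.Injective fH := by
    refine (injective_iff_map_eq_one _).2 fun σ hσ => ?_
    obtain ⟨y, hy⟩ := (QuotientGroup.eq_one_iff (N := Cfsg.Inn A.G1) _).1 hσ
    exact (hinner (z := 1) (σ := σ) (y := y) (by rw [map_one, one_mul, hy])).1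
  have hdisj : Disjoint dH.range fH.range := by
    rw [Subgroup.disjoint_def]
    rintro a ⟨z, rfl⟩ ⟨σ, hσ⟩
    have h : (QuotientGroup.mk' (Cfsg.Inn A.G1))
        (O.tDiag phi q hcard G1 hG z * O.tField phi q hcard G1 hG hphi σ⁻¹) = 1 := by
      rw [map_mul, map_inv, map_inv]
      exact mul_inv_eq_one.2 hσ.symm
    obtain ⟨y, hy⟩ := (QuotientGroup.eq_one_iff _).1 h
    have h1 := (hinner hy.symm).1
    rw [inv_eq_one] at h1
    rw [← hσ, h1, map_one]
  have hout : Nat.card (Cfsg.Out A.G1) = Nat.card dH.range * Nat.card (F ≃+* F) := by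
    rw [Nat.card_congr (MonoidHom.ofInjective hfinj).toEquiv, ← Nat.card_prod]
    refine (Nat.card_congr (Equiv.ofBijective
      (fun p : dH.range × fH.range => (p.1 : Cfsg.Out A.G1) * p.2) ⟨?_, fun a => ?_⟩)).symm
    · exact fun p p' e => Subgroup.mul_injective_of_disjoint hdisj e
    · obtain ⟨θ, rfl⟩ := QuotientGroup.mk'_surjective _ a
      obtain ⟨x, z, σ, rfl⟩ := O.exists_decomp phi q hcard G1 hG hphi hr hown htop hreach θ
      refine ⟨(⟨_, z, rfl⟩, ⟨_, σ, rfl⟩), ?_⟩
      show dH z * fH σ = _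
      rw [map_mul, map_mul, show QuotientGroup.mk' (Cfsg.Inn A.G1) (MulAut.conj x) = 1 from
        (QuotientGroup.eq_one_iff _).2 ⟨x, rfl⟩, one_mul]
      rfl
  have hker : Nat.card dH.ker = Nat.card A.H1 := by
    have hmem : ∀ z, z ∈ dH.ker ↔ S.dg (Sys.extVal D F z.1) ∈ A.H1 := by
      intro z
      rw [MonoidHom.mem_ker]
      constructor
      · intro hz
        obtain ⟨y, hy⟩ := (QuotientGroup.eq_one_iff (N := Cfsg.Inn A.G1) _).1 hz
        obtain ⟨-, h1, h2⟩ := hinner (z := z) (σ := 1) (y := y) (by rw [map_one, mul_one, hy])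
        exact h1 ▸ h2
      · intro hz
        exact (QuotientGroup.eq_one_iff _).2 ⟨⟨_, A.H1_le hz⟩, MulEquiv.ext fun w => Subtype.ext rfl⟩
    refine Nat.card_congr (Equiv.ofBijective (fun z => ⟨_, (hmem z.1).1 z.2⟩) ⟨?_, ?_⟩)
    · intro z z' e
      refine Subtype.ext (Subtype.ext (funext fun i => ?_))
      have h := S.dg_inj (congrArg Subtype.val e) i.2
      rwa [Sys.extVal_apply, Sys.extVal_apply] at h
    · rintro ⟨d, hd⟩
      obtain ⟨w, rfl⟩ := S.exists_dg (A.H1_diag hd)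
      let c : Fin D.rank → Fˣ := fun i => w i
      have hdg : S.dg (Sys.extVal D F c) = S.dg w := S.dg_extVal w
      have hc : c ∈ tfix (G := G) phi := by
        intro i
        obtain ⟨a, ha⟩ := O.ob_mem i i.2
        have hi : i = O.memF (O.ob i) a := Fin.ext ha.symm
        generalize O.ob i = j at a ha hi
        subst hi
        rw [O.tauP_memF]
        have hmem' : O.xh j true (fun b => (c (O.memF j b) : F) * 1) ∈
            S.uminus F (O.toW.wJ j) ⊓ (G.sigma phi).eqLocus (MonoidHom.id _) := by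
          refine Subgroup.mem_inf.2 ⟨O.xh_mem_genBy j _, ?_⟩
          have h := O.dg_ext_conj_xh c j true (fun _ => (1 : F))
          simp only [if_true] at h
          rw [← h, hdg]
          exact A.G1_le_Fx (mul_mem (mul_mem (A.H1_le hd) (O.xT phi q hcard G1 hG j true _ (O.tw_one phi j)).2)
            (inv_mem (A.H1_le hd)))
        obtain ⟨c', hc', e⟩ := (O.mem_fixed_iff phi).1 hmem'
        rw [← O.xh_inj j e] at hc'
        exact Units.ext (by simpa using hc' a)
      exact ⟨⟨⟨c, hc⟩, (hmem _).2 (by rw [hdg]; exact hd)⟩, Subtype.ext hdg⟩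
  rw [hout, mul_right_comm]
  congr 1
  rw [← hker, ← Subgroup.index_ker, Subgroup.index_mul_card]

end Orbits

end Twisted

end CfsgLib.Chev
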