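import Cfsg.Agent.Chev.AutThm.TwRoot
import Cfsg.Agent.Chev.Twisted.OrbitGroup

/-!
# Twisted groups of orbit type: normalised automorphisms are field automorphisms on the root elements
-/

set_option autoImplicit false

namespace CfsgLib.Chev

open Cfsg.Lie Matrix

universe u

namespace Twisted

variable {D : ChevalleyDatum} {S : Sys.{u} D} {G : Graph D} {m : ℕ}

namespace Orbits

variable (O : Orbits S G m) {F : Type u} [Field F] (phi : F →+* F) (q : ℕ)

/-- The root elements of two orbits commute, of either sign. -/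
def CommOK (a b : Fin m) : Prop :=
  ∀ i i' s, O.rt b s i' ≠ O.rt a s i ∧ O.rt b s i' ≠ D.neg (O.rt a s i) ∧
    D.commTerms (O.rt a s i) (O.rt b s i') = []

/-- The members of an orbit are orthogonal. -/
def OwnOK : Prop :=
  ∀ j l i, D.cartan (O.mem j l) (D.simple (O.mem j i)) = if l = i then 2 else 0

/-- An orbit joined to a larger one with Cartan integer `-1`. -/
def Link (a b : Fin m) : Prop :=
  O.size a ∣ O.size b ∧
    ∀ l, D.cartan (O.mem a l) (D.simple (O.mem b ⟨0, O.size_pos b⟩)) =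
      if (l : ℕ) = 0 then -1 else 0

theorem simpleOrbits : GData.SimpleOrbits O.toW := fun j r hr => by
  obtain ⟨i, rfl⟩ := O.mem_inJ.1 hr
  exact ⟨⟨O.mem j i, O.mem_lt j i⟩, rfl, O.mem_ob j i⟩

variable {phi}

theorem xh_false_inj [Finite F] (j : Fin m) : Function.Injective (O.xh (F := F) j false) := by
  intro c c' e
  have h : O.nJ F j * O.xh j true (fun i => -c i) * (O.nJ F j)⁻¹ =
      O.nJ F j * O.xh j true (fun i => -c' i) * (O.nJ F j)⁻¹ := by
    rw [O.nJ_conj_xh, O.nJ_conj_xh]; simpa using e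
  funext i
  simpa using congrFun (O.xh_inj j (mul_left_cancel (mul_right_cancel h))) i

theorem xh_commute_opp {j k : Fin m} (h : j ≠ k) (c : Fin (O.size j) → F)
    (c' : Fin (O.size k) → F) : Commute (O.xh j true c) (O.xh k false c') := by
  rw [O.xh_prod, O.xh_prod]
  refine Commute.list_prod_left _ _ fun x hx => Commute.list_prod_right _ _ fun y hy => ?_
  obtain ⟨i, -, rfl⟩ := List.mem_map.1 hx
  obtain ⟨i', -, rfl⟩ := List.mem_map.1 hy
  exact S.comm_simple_neg (O.mem_lt j i) (O.mem_lt k i')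
    (fun e => h (by rw [← O.mem_ob j i, e, O.mem_ob])) _ _

theorem xh_commute {a b : Fin m} (h : O.CommOK a b) (s : Bool) (c : Fin (O.size a) → F)
    (c' : Fin (O.size b) → F) : Commute (O.xh a s c) (O.xh b s c') := by
  rw [O.xh_prod, O.xh_prod]
  refine Commute.list_prod_left _ _ fun x hx => Commute.list_prod_right _ _ fun y hy => ?_
  obtain ⟨i, -, rfl⟩ := List.mem_map.1 hx
  obtain ⟨i', -, rfl⟩ := List.mem_map.1 hy
  obtain ⟨h1, h2, h3⟩ := h i i' s
  have e := S.comm_wU (F := F) (O.rt_lt a s i) (O.rt_lt b s i') h1 h2 (c i) (c' i')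
  rw [show D.commWord F (O.rt a s i) (O.rt b s i') (c i) (c' i') = [] by
    rw [ChevalleyDatum.commWord, h3]; rfl] at e
  rw [show S.wU ([] : List (ℕ × F)) = 1 from rfl, mul_one] at e
  exact e.symm

/-- The factor by which a torus element of an orbit acts on a fundamental root group. -/
def tN (j k : Fin m) (u : Fin (O.size j) → Fˣ) (i : Fin (O.size k)) : Fˣ :=
  ∏ l, u l ^ D.cartan (O.mem j l) (D.simple (O.mem k i))

theorem torus_conj (j k : Fin m) (u : Fin (O.size j) → Fˣ) (c : Fin (O.size k) → F) :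
    O.nh j u * (O.nJ F j)⁻¹ * O.xh k true c * (O.nh j u * (O.nJ F j)⁻¹)⁻¹ =
      O.xh k true (fun i => (O.tN j k u i : F) * c i) := by
  rw [O.nh_mul_inv_nJ]
  show S.dg (torHom D (O.ext0 j u)) * O.xh k true c * (S.dg (torHom D (O.ext0 j u)))⁻¹ = _
  rw [O.dg_conj_xh]
  congr 1
  funext i
  congr 1
  refine congrArg Units.val ?_
  show S.chi (torHom D (O.ext0 j u)) (D.simple (O.mem k i)) = _
  rw [S.chi_simple _ (O.mem_lt k i)]
  show ∏ x : Fin D.rank, O.ext0 j u x ^ D.cartan (x : ℕ) (D.simple (O.mem k i)) = _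
  refine (Fintype.prod_of_injective (O.memF j) (O.memF_injective j) _ _ (fun x hx => ?_)
    (fun l => ?_)).symm
  · rw [show O.ext0 j u x = 1 from Function.extend_apply' u _ x fun ⟨l, hl⟩ => hx ⟨l, hl⟩,
      _root_.one_zpow]
  · show _ = O.ext0 j u (O.memF j l) ^ _
    rw [O.ext0_mem]; rfl

theorem tN_own (hown : O.OwnOK) (j : Fin m) (u : Fin (O.size j) → Fˣ) (i : Fin (O.size j)) :
    O.tN j j u i = u i * u i := by
  rw [tN, Finset.prod_eq_single_of_mem i (Finset.mem_univ _), hown j i i, if_pos rfl, zpow_two]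
  intro l _ hl
  rw [hown j l i, if_neg hl, _root_.zpow_zero]

/-- `n(u)` carries the positive root group of its orbit to the negative one. -/
theorem nh_conj_xh (hown : O.OwnOK) (j : Fin m) (u : Fin (O.size j) → Fˣ)
    (c : Fin (O.size j) → F) :
    O.nh j u * O.xh j true c * (O.nh j u)⁻¹ =
      O.xh j false (fun i => -(((u i)⁻¹ : Fˣ) : F) * ((((u i)⁻¹ : Fˣ) : F) * c i)) := by
  rw [show O.nh j u * O.xh j true c * (O.nh j u)⁻¹ = O.nh j u * (O.nJ F j)⁻¹ *
      (O.nJ F j * O.xh j true c * (O.nJ F j)⁻¹) * (O.nh j u * (O.nJ F j)⁻¹)⁻¹ by group,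
    O.nJ_conj_xh, O.nh_mul_inv_nJ]
  show S.dg (torHom D (O.ext0 j u)) * O.xh j false _ * (S.dg (torHom D (O.ext0 j u)))⁻¹ = _
  rw [O.dg_conj_xh]
  congr 1
  funext i
  have hchi : S.chi (torHom D (O.ext0 j u)) (O.rt j false i) = (O.tN j j u i)⁻¹ := by
    show S.chi _ (D.neg (D.simple (O.mem j i))) = _
    rw [S.chi_neg _ (S.simple_lt (O.mem_lt j i)), S.chi_simple _ (O.mem_lt j i)]
    refine congrArg _ ?_
    show ∏ x : Fin D.rank, O.ext0 j u x ^ D.cartan (x : ℕ) (D.simple (O.mem j i)) = _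
    refine (Fintype.prod_of_injective (O.memF j) (O.memF_injective j) _ _ (fun x hx => ?_)
      (fun l => ?_)).symm
    · rw [show O.ext0 j u x = 1 from Function.extend_apply' u _ x fun ⟨l, hl⟩ => hx ⟨l, hl⟩,
        _root_.one_zpow]
    · show _ = O.ext0 j u (O.memF j l) ^ _
      rw [O.ext0_mem]; rfl
  rw [hchi, O.tN_own hown, _root_.mul_inv_rev, Units.val_mul]
  ring

variable (phi) [Finite F]
variable (hcard : ∀ j, Nat.card {c : Fin (O.size j) → F // O.Tw phi j c} = q ^ O.size j)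
  (G1 : Subgroup (GL D.Idx F)) (hG : G1 = O.tgroup phi)

/-- A root element of an orbit as an element of the group. -/
noncomputable def xT (j : Fin m) (s : Bool) (c : Fin (O.size j) → F) (hc : O.Tw phi j c) :
    (O.toG phi q hcard G1 hG).G1 := ⟨O.xh j s c, hG ▸ O.xh_mem phi j s hc⟩

theorem coe_xT {j : Fin m} {s : Bool} {c : Fin (O.size j) → F} (hc : O.Tw phi j c) :
    ((O.xT phi q hcard G1 hG j s c hc : (O.toG phi q hcard G1 hG).G1) : GL D.Idx F) = O.xh j s c := rfl

theorem mem_Xp {j : Fin m} {g : GL D.Idx F} :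
    g ∈ (O.toG phi q hcard G1 hG).Xp j ↔ ∃ c, O.Tw phi j c ∧ g = O.xh j true c :=
  O.mem_fixed_iff phi

theorem mem_Xn' {j : Fin m} {g : GL D.Idx F} :
    g ∈ (O.toG phi q hcard G1 hG).Xn j ↔ ∃ c, O.Tw phi j c ∧ g = O.xh j false c := by
  rw [GData.mem_Xn]
  constructor
  · rintro ⟨x, hx, rfl⟩
    obtain ⟨c, hc, rfl⟩ := (O.mem_Xp phi q hcard G1 hG).1 hx
    exact ⟨_, O.tw_neg phi hc, O.nJ_conj_xh j c⟩
  · rintro ⟨c, hc, rfl⟩
    exact ⟨_, (O.mem_Xp phi q hcard G1 hG).2 ⟨_, O.tw_neg phi hc, rfl⟩,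
      by rw [show (O.toG phi q hcard G1 hG).nJ j = O.nJ F j from rfl, O.nJ_conj_xh]; simp⟩

/-- The conditions under which only the identity can permute the orbits. -/
def Rigid : Prop :=
  ∀ π : Equiv.Perm (Fin m), (∀ j, O.size (π j) = O.size j) →
    (∀ a b, O.CommOK a b → O.toW.wJ (π a) * O.toW.wJ (π b) = O.toW.wJ (π b) * O.toW.wJ (π a)) →
      π = 1

theorem card_of_mapsOn {θ : MulAut (O.toG phi q hcard G1 hG).G1} {X Y : Subgroup (GL D.Idx F)} (hX : X ≤ G1)
    (hY : Y ≤ G1) (h : (O.toG phi q hcard G1 hG).MapsOn θ X Y) : Nat.card X = Nat.card Y := by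
  let Z := (O.toG phi q hcard G1 hG).G1
  refine Nat.card_congr
    { toFun := fun x => ⟨_, (h ⟨x, hX x.2⟩).2 x.2⟩
      invFun := fun y => ⟨_, (h.symm ⟨y, hY y.2⟩).2 y.2⟩
      left_inv := fun x => Subtype.ext ?_
      right_inv := fun y => Subtype.ext ?_ }
  · exact congrArg (fun z : Z => (z : GL D.Idx F))
      (MulAut.inv_apply_self _ θ ⟨(x : GL D.Idx F), hX x.2⟩)
  · exact congrArg (fun z : Z => (z : GL D.Idx F))
      (MulAut.apply_inv_self _ θ ⟨(y : GL D.Idx F), hY y.2⟩)

omit [Finite F] in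
theorem nJ_eq_xh (j : Fin m) :
    O.nJ F j = O.xh j true (fun _ => 1) * O.xh j false (fun _ => -1) * O.xh j true (fun _ => 1) := by
  rw [nJ, O.nh_eq]
  simp

/-- Up to an inner automorphism every root group of an orbit is kept. -/
theorem exists_fixing (hr : O.Rigid) (θ : MulAut (O.toG phi q hcard G1 hG).G1) :
    ∃ x : (O.toG phi q hcard G1 hG).G1, (O.toG phi q hcard G1 hG).MapsOn (MulAut.conj x * θ) (O.toG phi q hcard G1 hG).U1 (O.toG phi q hcard G1 hG).U1 ∧
      (O.toG phi q hcard G1 hG).MapsOn (MulAut.conj x * θ) (O.toG phi q hcard G1 hG).V1 (O.toG phi q hcard G1 hG).V1 ∧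
      ∀ i, (O.toG phi q hcard G1 hG).MapsOn (MulAut.conj x * θ) ((O.toG phi q hcard G1 hG).Xp i) ((O.toG phi q hcard G1 hG).Xp i) ∧
        (O.toG phi q hcard G1 hG).MapsOn (MulAut.conj x * θ) ((O.toG phi q hcard G1 hG).Xn i) ((O.toG phi q hcard G1 hG).Xn i) := by
  obtain ⟨x, π, π', hU, hV, hn, hp⟩ := (O.toG phi q hcard G1 hG).exists_perms O.simpleOrbits θ
  refine ⟨x, hU, hV, ?_⟩
  generalize MulAut.conj x * θ = φ at hn hp ⊢
  have memP : ∀ {j c} (hc : O.Tw phi j c),
      ((O.xT phi q hcard G1 hG j true c hc : (O.toG phi q hcard G1 hG).G1) : GL D.Idx F) ∈ (O.toG phi q hcard G1 hG).Xp j :=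
    fun hc => (O.mem_Xp phi q hcard G1 hG).2 ⟨_, hc, rfl⟩
  have memN : ∀ {j c} (hc : O.Tw phi j c),
      ((O.xT phi q hcard G1 hG j false c hc : (O.toG phi q hcard G1 hG).G1) : GL D.Idx F) ∈ (O.toG phi q hcard G1 hG).Xn j :=
    fun hc => (O.mem_Xn' phi q hcard G1 hG).2 ⟨_, hc, rfl⟩
  have hπ : ∀ i, π' i = π i := by
    intro i
    by_contra hne
    have h1 := O.tw_one phi i
    have h2 := O.tw_neg phi h1
    obtain ⟨c, hc, e⟩ := (O.mem_Xp phi q hcard G1 hG).1 ((hp i _).2 (memP h1))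
    obtain ⟨c', hc', e'⟩ := (O.mem_Xn' phi q hcard G1 hG).1 ((hn i _).2 (memN h2))
    have hcm : Commute (φ (O.xT phi q hcard G1 hG i true _ h1))
        (φ (O.xT phi q hcard G1 hG i false _ h2)) := by
      refine Subtype.ext ?_
      rw [Subgroup.coe_mul, Subgroup.coe_mul, e, e']
      exact (O.xh_commute_opp hne c c').eq
    have h3 : Commute (O.xT phi q hcard G1 hG i true _ h1) (O.xT phi q hcard G1 hG i false _ h2) :=
      φ.injective (by rw [map_mul, map_mul]; exact hcm.eq)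
    have h4 : Commute (O.xh i true fun _ => (1 : F)) (O.xh i false fun _ => (-1 : F)) :=
      congrArg Subtype.val h3.eq
    have h5 : O.nJ F i * O.xh i true (fun _ => (1 : F)) * (O.nJ F i)⁻¹ =
        O.xh i true (fun _ => (1 : F)) := by
      rw [mul_inv_eq_iff_eq_mul, O.nJ_eq_xh]
      exact (((Commute.refl _).mul_left h4.symm).mul_left (Commute.refl _)).eq
    have h6 : O.xh i true (fun _ => (1 : F)) ∈ D.posUnipotent F ⊓ D.negUnipotent F := by
      refine Subgroup.mem_inf.2 ⟨S.genBy_le_pos _ (O.xh_mem_genBy i _), ?_⟩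
      rw [← h5]
      exact S.uminus_conj_neg (O.nJ_acts i) (O.xh_mem_genBy i _)
    rw [S.pos_inf_neg, Subgroup.mem_bot, ← O.xh_zero i true] at h6
    exact one_ne_zero (congrFun (O.xh_inj i h6) ⟨0, O.size_pos i⟩)
  have hπ1 : π = 1 := by
    refine hr π (fun j => ?_) fun a b hab => ?_
    · have h := O.card_of_mapsOn phi q hcard G1 hG ((O.toG phi q hcard G1 hG).Xn_le j) ((O.toG phi q hcard G1 hG).Xn_le (π j)) (hn j)
      rw [GData.card_Xn, GData.card_Xn] at h
      exact (Nat.pow_right_injective ((O.toG phi q hcard G1 hG).one_lt_q j) h).symm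
    have key : ∀ (s : Bool) (c : Fin (O.size (π a)) → F) (c' : Fin (O.size (π b)) → F),
        O.Tw phi (π a) c → O.Tw phi (π b) c' → Commute (O.xh (π a) s c) (O.xh (π b) s c') := by
      intro s c c' hc hc'
      set g := O.xT phi q hcard G1 hG (π a) s c hc
      set g' := O.xT phi q hcard G1 hG (π b) s c' hc'
      suffices hgg : Commute (φ⁻¹ g) (φ⁻¹ g') from congrArg Subtype.val
        (show g * g' = g' * g from (MulEquiv.injective φ⁻¹) (by rw [map_mul, map_mul]; exact hgg.eq))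
      refine Subtype.ext ?_
      rw [Subgroup.coe_mul, Subgroup.coe_mul]
      cases s
      · obtain ⟨d, -, e⟩ := (O.mem_Xn' phi q hcard G1 hG).1
          (((hn a).symm g).2 (memN hc))
        obtain ⟨d', -, e'⟩ := (O.mem_Xn' phi q hcard G1 hG).1
          (((hn b).symm g').2 (memN hc'))
        rw [e, e']; exact (O.xh_commute hab false d d').eq
      · obtain ⟨d, -, e⟩ := (O.mem_Xp phi q hcard G1 hG).1
          (((hp a).symm g).2 (by rw [hπ a]; exact memP hc))
        obtain ⟨d', -, e'⟩ := (O.mem_Xp phi q hcard G1 hG).1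
          (((hp b).symm g').2 (by rw [hπ b]; exact memP hc'))
        rw [e, e']; exact (O.xh_commute hab true d d').eq
    rcases eq_or_ne (π a) (π b) with h | h
    · rw [h]
    have hcn : Commute (O.nJ F (π a)) (O.nJ F (π b)) := by
      have p1 := O.tw_one phi (π a)
      have p2 := O.tw_one phi (π b)
      have k1 := key true _ _ p1 p2
      have k2 := key false _ _ (O.tw_neg phi p1) (O.tw_neg phi p2)
      have k3 := O.xh_commute_opp (F := F) h (fun _ => 1) (fun _ => -1)
      have k4 := (O.xh_commute_opp (F := F) (Ne.symm h) (fun _ => 1) (fun _ => -1)).symm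
      rw [O.nJ_eq_xh, O.nJ_eq_xh]
      exact ((((k1.mul_right k3).mul_right k1).mul_left
        ((k4.mul_right k2).mul_right k4)).mul_left ((k1.mul_right k3).mul_right k1))
    refine S.acts_unique (S.acts_mul (O.nJ_acts (F := F) (π a)) (O.nJ_acts (F := F) (π b))) ?_
    rw [hcn.eq]
    exact S.acts_mul (O.nJ_acts (π b)) (O.nJ_acts (π a))
  intro i
  have h1 := hn i
  have h2 := hp i
  rw [hπ i] at h2
  rw [hπ1] at h1 h2
  exact ⟨h2, h1⟩

/-- An automorphism keeping `U¹`, `V¹` and every root group of an orbit. -/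
structure TwStd (θ : MulAut (O.toG phi q hcard G1 hG).G1)
    (f g : (j : Fin m) → (Fin (O.size j) → F) → (Fin (O.size j) → F)) : Prop where
  pos : ∀ j c (hc : O.Tw phi j c),
    ((θ (O.xT phi q hcard G1 hG j true c hc) : (O.toG phi q hcard G1 hG).G1) : GL D.Idx F) = O.xh j true (f j c)
  neg : ∀ j c (hc : O.Tw phi j c),
    ((θ (O.xT phi q hcard G1 hG j false c hc) : (O.toG phi q hcard G1 hG).G1) : GL D.Idx F) = O.xh j false (g j c)
  twf : ∀ j c, O.Tw phi j c → O.Tw phi j (f j c)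
  twg : ∀ j c, O.Tw phi j c → O.Tw phi j (g j c)
  surjf : ∀ j c, O.Tw phi j c → ∃ d, O.Tw phi j d ∧ f j d = c

theorem exists_std (hr : O.Rigid) (θ : MulAut (O.toG phi q hcard G1 hG).G1) :
    ∃ (x : (O.toG phi q hcard G1 hG).G1) (f g : (j : Fin m) → (Fin (O.size j) → F) → (Fin (O.size j) → F)),
      O.TwStd phi q hcard G1 hG (MulAut.conj x * θ) f g := by
  classical
  obtain ⟨x, -, -, h⟩ := O.exists_fixing phi q hcard G1 hG hr θ
  refine ⟨x, ?_⟩
  generalize MulAut.conj x * θ = φ at h ⊢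
  have hp : ∀ j c (hc : O.Tw phi j c), ∃ d, O.Tw phi j d ∧
      ((φ (O.xT phi q hcard G1 hG j true c hc) : (O.toG phi q hcard G1 hG).G1) : GL D.Idx F) = O.xh j true d :=
    fun j c hc => (O.mem_Xp phi q hcard G1 hG).1
      (((h j).1 _).2 ((O.mem_Xp phi q hcard G1 hG).2 ⟨c, hc, rfl⟩))
  have hn : ∀ j c (hc : O.Tw phi j c), ∃ d, O.Tw phi j d ∧
      ((φ (O.xT phi q hcard G1 hG j false c hc) : (O.toG phi q hcard G1 hG).G1) : GL D.Idx F) = O.xh j false d :=
    fun j c hc => (O.mem_Xn' phi q hcard G1 hG).1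
      (((h j).2 _).2 ((O.mem_Xn' phi q hcard G1 hG).2 ⟨c, hc, rfl⟩))
  choose f hf hf' using hp
  choose g hg hg' using hn
  refine ⟨fun j c => if hc : O.Tw phi j c then f j c hc else c,
    fun j c => if hc : O.Tw phi j c then g j c hc else c,
    ⟨fun j c hc => ?_, fun j c hc => ?_, fun j c hc => ?_, fun j c hc => ?_, fun j c hc => ?_⟩⟩
  · simp only [dif_pos hc]; exact hf' j c hc
  · simp only [dif_pos hc]; exact hg' j c hc
  · simp only [dif_pos hc]; exact hf j c hc
  · simp only [dif_pos hc]; exact hg j c hc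
  · obtain ⟨d, hd, e⟩ := (O.mem_Xp phi q hcard G1 hG).1
      (((h j).1.symm (O.xT phi q hcard G1 hG j true c hc)).2
        ((O.mem_Xp phi q hcard G1 hG).2 ⟨c, hc, rfl⟩))
    refine ⟨d, hd, ?_⟩
    have e' : φ⁻¹ (O.xT phi q hcard G1 hG j true c hc) = O.xT phi q hcard G1 hG j true d hd :=
      Subtype.ext e
    have e2 := hf' j d hd
    rw [← e', MulAut.apply_inv_self] at e2
    simp only [dif_pos hd]
    exact (O.xh_inj j e2).symm

omit [Finite F] in
theorem tw_add {j : Fin m} {c d : Fin (O.size j) → F} (hc : O.Tw phi j c) (hd : O.Tw phi j d) :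
    O.Tw phi j (fun i => c i + d i) := fun i => by simp [hc i, hd i]

omit [Finite F] in
theorem tw_mul {j : Fin m} {c d : Fin (O.size j) → F} (hc : O.Tw phi j c) (hd : O.Tw phi j d) :
    O.Tw phi j (fun i => c i * d i) := fun i => by simp [hc i, hd i]

omit [Finite F] in
theorem tw_zero (j : Fin m) : O.Tw phi j (fun _ => (0 : F)) := fun i => by simp

omit [Finite F] in
theorem tw_cases {j : Fin m} {c : Fin (O.size j) → F} (hc : O.Tw phi j c) :
    c = (fun _ => 0) ∨ ∀ i, c i ≠ 0 := by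
  by_cases h : ∀ i, c i ≠ 0
  · exact Or.inr h
  push Not at h
  obtain ⟨i, hi⟩ := h
  refine Or.inl (funext fun a => ?_)
  refine rotE_invariant (P := fun a => c a = 0) (fun a ha => ?_) hi a
  show c (rotE _ a) = 0
  rw [hc a, show c a = 0 from ha, map_zero]

namespace TwStd

variable {O phi q hcard G1 hG} {θ : MulAut (O.toG phi q hcard G1 hG).G1}
  {f g : (j : Fin m) → (Fin (O.size j) → F) → (Fin (O.size j) → F)}
  (h : O.TwStd phi q hcard G1 hG θ f g)

include h

theorem f_add {j : Fin m} {c d : Fin (O.size j) → F} (hc : O.Tw phi j c) (hd : O.Tw phi j d) :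
    f j (fun i => c i + d i) = fun i => f j c i + f j d i := by
  refine O.xh_inj j ?_
  rw [← h.pos j _ (O.tw_add phi hc hd), ← O.xh_add, ← h.pos j c hc, ← h.pos j d hd,
    ← Subgroup.coe_mul, ← map_mul]
  exact congrArg (fun x => ((θ x : (O.toG phi q hcard G1 hG).G1) : GL D.Idx F)) (Subtype.ext (O.xh_add j true c d).symm)

theorem g_add {j : Fin m} {c d : Fin (O.size j) → F} (hc : O.Tw phi j c) (hd : O.Tw phi j d) :
    g j (fun i => c i + d i) = fun i => g j c i + g j d i := by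
  refine O.xh_false_inj j ?_
  rw [← h.neg j _ (O.tw_add phi hc hd), ← O.xh_add, ← h.neg j c hc, ← h.neg j d hd,
    ← Subgroup.coe_mul, ← map_mul]
  exact congrArg (fun x => ((θ x : (O.toG phi q hcard G1 hG).G1) : GL D.Idx F)) (Subtype.ext (O.xh_add j false c d).symm)

theorem f_zero (j : Fin m) : f j (fun _ => 0) = fun _ => 0 := by
  funext i
  have := congrFun (h.f_add (O.tw_zero phi j) (O.tw_zero phi j)) i
  simpa using this

theorem f_neg {j : Fin m} {c : Fin (O.size j) → F} (hc : O.Tw phi j c) :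
    f j (fun i => -c i) = fun i => -f j c i := by
  funext i
  have := congrFun (h.f_add hc (O.tw_neg phi hc)) i
  simp only [add_neg_cancel, h.f_zero] at this
  exact eq_neg_of_add_eq_zero_right this.symm

theorem f_inj {j : Fin m} {c d : Fin (O.size j) → F} (hc : O.Tw phi j c) (hd : O.Tw phi j d)
    (e : f j c = f j d) : c = d := by
  have h1 : O.xT phi q hcard G1 hG j true c hc = O.xT phi q hcard G1 hG j true d hd :=
    θ.injective (Subtype.ext (by rw [h.pos, h.pos, e]))
  exact O.xh_inj j (congrArg Subtype.val h1)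

theorem g_inj {j : Fin m} {c d : Fin (O.size j) → F} (hc : O.Tw phi j c) (hd : O.Tw phi j d)
    (e : g j c = g j d) : c = d := by
  have h1 : O.xT phi q hcard G1 hG j false c hc = O.xT phi q hcard G1 hG j false d hd :=
    θ.injective (Subtype.ext (by rw [h.neg, h.neg, e]))
  exact O.xh_false_inj j (congrArg Subtype.val h1)

theorem f_ne_zero {j : Fin m} {c : Fin (O.size j) → F} (hc : O.Tw phi j c) (hne : ∀ i, c i ≠ 0) :
    ∀ i, f j c i ≠ 0 := by
  refine (O.tw_cases phi (h.twf j c hc)).resolve_left fun e => ?_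
  rw [← h.f_zero j] at e
  exact hne ⟨0, O.size_pos j⟩ (congrFun (h.f_inj hc (O.tw_zero phi j) e) _)

/-- The images of twisted units. -/
noncomputable def fU {j : Fin m} {u : Fin (O.size j) → Fˣ} (hu : O.TwU phi j u) :
    Fin (O.size j) → Fˣ :=
  fun i => Units.mk0 (f j (fun a => (u a : F)) i)
    (h.f_ne_zero (TwU.coe O phi hu) (fun a => (u a).ne_zero) i)

theorem fU_twU {j : Fin m} {u : Fin (O.size j) → Fˣ} (hu : O.TwU phi j u) :
    O.TwU phi j (h.fU hu) := fun i => Units.ext (h.twf j _ (TwU.coe O phi hu) i)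

/-- The image of a rank one element. -/
theorem g_eq (hown : O.OwnOK) {j : Fin m} {u : Fin (O.size j) → Fˣ} (hu : O.TwU phi j u) :
    g j (fun i => -((u i : F))⁻¹) = fun i => -(h.fU hu i : F)⁻¹ := by
  have hc := TwU.coe O phi hu
  have hd : O.Tw phi j (fun i => -((u i : F))⁻¹) := fun i => by
    simp [hu i, map_neg, map_inv₀]
  set a := fun i => (h.fU hu i : F)
  set b := g j (fun i => -((u i : F))⁻¹) with hb
  have hb0 : ∀ i, b i ≠ 0 := by
    refine (O.tw_cases phi (h.twg j _ hd)).resolve_left fun e => ?_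
    have h0 : g j (fun _ => (0 : F)) = fun _ => 0 := by
      funext i
      have := congrFun (h.g_add (O.tw_zero phi j) (O.tw_zero phi j)) i
      simpa using this
    rw [← h0] at e
    have := congrFun (h.g_inj hd (O.tw_zero phi j) e) ⟨0, O.size_pos j⟩
    simp at this
  let bu : Fin (O.size j) → Fˣ := fun i => Units.mk0 _ (hb0 i)
  have hbt : ∀ i, b (rotE (O.size j) i) = phi (b i) := h.twg j _ hd
  -- the image maps `X` into `X⁻`
  have hmap : ∀ d, O.Tw phi j d → ∃ d', (O.xh j true a * O.xh j false b * O.xh j true a) *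
      O.xh j true d * (O.xh j true a * O.xh j false b * O.xh j true a)⁻¹ = O.xh j false d' := by
    intro d hd'
    obtain ⟨d₀, hd₀, rfl⟩ := h.surjf j d hd'
    set n : (O.toG phi q hcard G1 hG).G1 := O.xT phi q hcard G1 hG j true _ hc * O.xT phi q hcard G1 hG j false _ hd *
      O.xT phi q hcard G1 hG j true _ hc
    have hn : (n : GL D.Idx F) = O.nh j u := (O.nh_eq j u).symm
    have hconj := O.nh_conj_xh hown j u d₀
    have hd2 : O.Tw phi j (fun i => -(((u i)⁻¹ : Fˣ) : F) * ((((u i)⁻¹ : Fˣ) : F) * d₀ i)) := fun i => by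
      simp [hu i, hd₀ i, map_neg, map_inv₀]
    refine ⟨g j (fun i => -(((u i)⁻¹ : Fˣ) : F) * ((((u i)⁻¹ : Fˣ) : F) * d₀ i)), ?_⟩
    have e1 : n * O.xT phi q hcard G1 hG j true d₀ hd₀ * n⁻¹ =
        O.xT phi q hcard G1 hG j false _ hd2 := Subtype.ext (by
      push_cast
      rw [hn]
      simpa only [coe_xT, Units.val_inv_eq_inv_val] using hconj)
    have e2 := congrArg (fun x => ((θ x : (O.toG phi q hcard G1 hG).G1) : GL D.Idx F)) e1
    simp only [map_mul, map_inv, Subgroup.coe_mul, Subgroup.coe_inv, n, h.pos, h.neg] at e2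
    exact e2
  -- rewrite the image through the rank one identity
  set e₀ : Fin (O.size j) → F := fun i => a i + (b i)⁻¹ with he₀
  suffices he : ∀ i, e₀ i = 0 by
    funext i
    have h1 : a i = -(b i)⁻¹ := eq_neg_of_add_eq_zero_left (he i)
    rw [show (h.fU hu i : F) = a i from rfl, h1, inv_neg, inv_inv, _root_.neg_neg]
  have he₀tw : O.Tw phi j e₀ := fun i => by
    show a _ + (b _)⁻¹ = phi (a i + (b i)⁻¹)
    rw [show a (rotE _ i) = phi (a i) from congrArg Units.val (h.fU_twU hu i), hbt i,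
      map_add, map_inv₀]
  -- `x(e₀)` normalises the negative group
  have hnorm : ∀ d, O.Tw phi j d →
      ∃ d', O.xh j true e₀ * O.xh j false d * (O.xh j true e₀)⁻¹ = O.xh j false d' := by
    intro d hd'
    have hb' : O.xh j false b = O.xh j true (fun i => (((bu i)⁻¹ : Fˣ) : F)) *
        O.nh j (fun i => -(bu i)⁻¹) * O.xh j true (fun i => (((bu i)⁻¹ : Fˣ) : F)) := by
      rw [← O.xh_false_eq]; rfl
    have hy : O.xh j true a * O.xh j false b * O.xh j true a =
        O.xh j true e₀ * O.nh j (fun i => -(bu i)⁻¹) * O.xh j true e₀ := by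
      rw [hb', show O.xh j true e₀ = O.xh j true a * O.xh j true (fun i => (((bu i)⁻¹ : Fˣ) : F)) by
        rw [O.xh_add]; congr 1]
      have hcm : O.xh j true (fun i => (((bu i)⁻¹ : Fˣ) : F)) * O.xh j true a =
          O.xh j true a * O.xh j true (fun i => (((bu i)⁻¹ : Fˣ) : F)) := by
        rw [O.xh_add, O.xh_add]; exact congrArg _ (funext fun i => add_comm _ _)
      simp only [mul_assoc]
      rw [← hcm]
    -- every element of the negative group is a conjugate of a positive one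
    have hN2 : ∃ z, O.Tw phi j z ∧ O.nh j (fun i => -(bu i)⁻¹) * O.xh j true z *
        (O.nh j (fun i => -(bu i)⁻¹))⁻¹ = O.xh j false d := by
      have hvu : O.TwU phi j (fun i => -(bu i)⁻¹) := fun i => Units.ext (by simp [bu, hbt i])
      set v := fun i => -(bu i)⁻¹
      refine ⟨fun i => -((v i : F) * (v i : F) * d i),
        O.tw_neg phi (O.tw_mul phi (O.tw_mul phi (TwU.coe O phi hvu) (TwU.coe O phi hvu)) hd'), ?_⟩
      rw [O.nh_conj_xh hown]
      congr 1
      funext i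
      have hv : (v i : F) ≠ 0 := (v i).ne_zero
      rw [Units.val_inv_eq_inv_val]
      field_simp
    obtain ⟨z, hz, ez⟩ := hN2
    obtain ⟨d', e'⟩ := hmap z hz
    refine ⟨d', ?_⟩
    rw [← e', hy, ← ez]
    have hcm : O.xh j true e₀ * O.xh j true z = O.xh j true z * O.xh j true e₀ := by
      rw [O.xh_add, O.xh_add]; exact congrArg _ (funext fun i => add_comm _ _)
    rw [show O.xh j true e₀ * O.nh j (fun i => -(bu i)⁻¹) * O.xh j true e₀ * O.xh j true z *
        (O.xh j true e₀ * O.nh j (fun i => -(bu i)⁻¹) * O.xh j true e₀)⁻¹ =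
      O.xh j true e₀ * O.nh j (fun i => -(bu i)⁻¹) * (O.xh j true e₀ * O.xh j true z) *
        (O.xh j true e₀)⁻¹ * (O.nh j (fun i => -(bu i)⁻¹))⁻¹ * (O.xh j true e₀)⁻¹ by group, hcm]
    group
  intro i
  obtain ⟨w, hw⟩ := hnorm _ (O.tw_one phi j)
  have hw0 : ∀ i, w i ≠ 0 := by
    intro i hi
    have hmem : O.xh j false w ∈ O.tgroup phi := by
      rw [← hw]
      exact mul_mem (mul_mem (O.xh_mem phi j true he₀tw) (O.xh_mem phi j false (O.tw_one phi j)))
        (inv_mem (O.xh_mem phi j true he₀tw))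
    obtain ⟨w', hw', ew⟩ := (O.mem_fixed_iff phi).1 (show (O.nJ F j)⁻¹ * O.xh j false w * O.nJ F j ∈
        S.uminus F (O.toW.wJ j) ⊓ (G.sigma phi).eqLocus (MonoidHom.id _) by
      refine Subgroup.mem_inf.2 ⟨O.mem_uminus_iff.2 ⟨fun a => -w a, ?_⟩, O.tgroup_le_fixed phi
        (mul_mem (mul_mem (inv_mem (O.nJ_mem phi j)) hmem) (O.nJ_mem phi j))⟩
      rw [show O.xh j false w = O.nJ F j * O.xh j true (fun a => -w a) * (O.nJ F j)⁻¹ by
        rw [O.nJ_conj_xh]; simp]
      group)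
    have hww : ∀ a, w a = -w' a := by
      intro a
      have e : O.xh j false w = O.xh j false (fun a => -w' a) := by
        rw [← O.nJ_conj_xh, ← ew]; group
      exact congrFun (O.xh_false_inj j e) a
    rcases O.tw_cases phi (O.tw_neg phi hw') with h0 | h0
    · have hw0' : w = fun _ => 0 := funext fun a => (hww a).trans (congrFun h0 a)
      rw [hw0', O.xh_zero, conj_eq_one_iff, ← O.xh_zero j false] at hw
      exact one_ne_zero (congrFun (O.xh_false_inj j hw) i)
    · exact h0 i ((hww i).symm.trans hi)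
  let wu : Fin (O.size j) → Fˣ := fun i => Units.mk0 _ (hw0 i)
  have hone := O.xh_false_eq j (fun _ => (1 : Fˣ))
  have hwe := O.xh_false_eq j wu
  simp only [Units.val_one, inv_one] at hone
  rw [hone] at hw
  rw [show (fun i => (wu i : F)) = w from rfl, ← hw] at hwe
  -- compare the two normal forms
  have hsplit : O.xh j true e₀ * (O.xh j true (fun _ => (1 : F)) * O.nh j (fun _ => (-1 : Fˣ)) *
      O.xh j true (fun _ => (1 : F))) * (O.xh j true e₀)⁻¹ =
      O.xh j true (fun i => e₀ i + 1) * O.nh j (fun _ => (-1 : Fˣ)) *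
        O.xh j true (fun i => 1 + -e₀ i) := by
    rw [show O.xh j true (fun i => e₀ i + 1) = O.xh j true e₀ * O.xh j true (fun _ => (1 : F)) from
        (O.xh_add j true e₀ _).symm,
      show O.xh j true (fun i => 1 + -e₀ i) = O.xh j true (fun _ => (1 : F)) * (O.xh j true e₀)⁻¹ by
        rw [O.xh_inv, O.xh_add]]
    group
  rw [hsplit] at hwe
  have hB : ∀ u : Fin (O.size j) → Fˣ, O.nh j u * (O.nJ F j)⁻¹ ∈ D.borelSubgroup F := fun u => by
    rw [O.nh_mul_inv_nJ]
    exact Subgroup.mem_sup_right (S.theta_mem_diag _)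
  have hpB : ∀ c, O.xh (F := F) j true c ∈ D.borelSubgroup F := fun c =>
    Subgroup.mem_sup_left (S.genBy_le_pos _ (O.xh_mem_genBy j c))
  obtain ⟨hb1, hx1⟩ := S.normal_form_unique (O.nJ_acts j) (mul_mem (hpB _) (hB _))
    (mul_mem (hpB _) (hB _)) (O.xh_mem_genBy j _) (O.xh_mem_genBy j _)
    (show O.xh j true (fun i => e₀ i + 1) * (O.nh j (fun _ => (-1 : Fˣ)) * (O.nJ F j)⁻¹) *
        O.nJ F j * O.xh j true (fun i => 1 + -e₀ i) =
      O.xh j true (fun i => (((wu i)⁻¹ : Fˣ) : F)) *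
        (O.nh j (fun i => -(wu i)⁻¹) * (O.nJ F j)⁻¹) * O.nJ F j *
        O.xh j true (fun i => (((wu i)⁻¹ : Fˣ) : F)) by
      refine Eq.trans ?_ (hwe.trans ?_) <;> group)
  have hx2 : 1 + -e₀ i = (w i)⁻¹ := by
    have := congrFun (O.xh_inj j hx1) i
    simpa [wu] using this
  -- the torus parts agree
  have hsep : O.xh j true (fun i => e₀ i + 1) = O.xh j true (fun i => (((wu i)⁻¹ : Fˣ) : F)) ∧
      O.nh j (fun _ => (-1 : Fˣ)) * (O.nJ F j)⁻¹ = O.nh j (fun i => -(wu i)⁻¹) * (O.nJ F j)⁻¹ := by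
    have h1 : (O.xh j true (fun i => (((wu i)⁻¹ : Fˣ) : F)))⁻¹ * O.xh j true (fun i => e₀ i + 1) ∈
        D.posUnipotent F ⊓ D.diagonalSubgroup F := by
      refine Subgroup.mem_inf.2 ⟨mul_mem (inv_mem (S.genBy_le_pos _ (O.xh_mem_genBy j _)))
        (S.genBy_le_pos _ (O.xh_mem_genBy j _)), ?_⟩
      rw [show (O.xh j true (fun i => (((wu i)⁻¹ : Fˣ) : F)))⁻¹ * O.xh j true (fun i => e₀ i + 1) =
        O.nh j (fun i => -(wu i)⁻¹) * (O.nJ F j)⁻¹ *
          (O.nh j (fun _ => (-1 : Fˣ)) * (O.nJ F j)⁻¹)⁻¹ by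
        rw [inv_mul_eq_iff_eq_mul, ← mul_assoc, eq_mul_inv_iff_mul_eq]; exact hb1]
      rw [O.nh_mul_inv_nJ, O.nh_mul_inv_nJ]
      exact mul_mem (S.theta_mem_diag _) (inv_mem (S.theta_mem_diag _))
    rw [S.pos_inf_diag, Subgroup.mem_bot, inv_mul_eq_one] at h1
    exact ⟨h1.symm, mul_left_cancel (h1 ▸ hb1)⟩
  have hx3 : e₀ i + 1 = (w i)⁻¹ := by
    have := congrFun (O.xh_inj j hsep.1) i
    simpa [wu] using this
  by_cases h2 : (2 : F) = 0
  · -- the squares of the torus parameters agree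
    have ht := congrArg (fun z => z * O.xh j true (fun _ => (1 : F)) * z⁻¹) hsep.2
    simp only [O.torus_conj] at ht
    have ht' := congrFun (O.xh_inj j ht) i
    have hN : ∀ v : Fin (O.size j) → Fˣ, O.tN j j v i = v i * v i := fun v => by
      rw [tN, Finset.prod_eq_single_of_mem i (Finset.mem_univ _), hown j i i, if_pos rfl, zpow_two]
      intro l _ hl
      rw [hown j l i, if_neg hl, _root_.zpow_zero]
    simp only [hN, mul_one, Units.val_mul, Units.val_neg, Units.val_one, Units.val_inv_eq_inv_val,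
      wu, Units.val_mk0] at ht'
    have h4 : ((w i)⁻¹ - 1) * ((w i)⁻¹ - 1) = 0 := by
      linear_combination -ht' + (1 - (w i)⁻¹) * h2
    have h5 := mul_self_eq_zero.1 h4
    rw [← hx3] at h5
    linear_combination h5
  · have h6 : (2 : F) * e₀ i = 0 := by linear_combination hx3 - hx2
    exact (mul_eq_zero.1 h6).resolve_left h2

theorem map_nh (hown : O.OwnOK) {j : Fin m} {u : Fin (O.size j) → Fˣ} (hu : O.TwU phi j u) :
    ((θ ⟨O.nh j u, hG ▸ O.nh_mem phi hu⟩ : (O.toG phi q hcard G1 hG).G1) : GL D.Idx F) = O.nh j (h.fU hu) := by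
  have hc := TwU.coe O phi hu
  have hd : O.Tw phi j (fun i => -((u i : F))⁻¹) := fun i => by
    simp [hu i, map_neg, map_inv₀]
  rw [show (⟨O.nh j u, hG ▸ O.nh_mem phi hu⟩ : (O.toG phi q hcard G1 hG).G1) = O.xT phi q hcard G1 hG j true _ hc *
    O.xT phi q hcard G1 hG j false _ hd * O.xT phi q hcard G1 hG j true _ hc from
    Subtype.ext (O.nh_eq j u)]
  simp only [map_mul, Subgroup.coe_mul, h.pos, h.neg, h.g_eq hown hu]
  exact (O.nh_eq j (h.fU hu)).symm

variable (h1 : ∀ j, f j (fun _ => 1) = fun _ => 1)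

include h1

theorem map_nJ (hown : O.OwnOK) (j : Fin m) :
    ((θ ⟨O.nJ F j, hG ▸ O.nJ_mem phi j⟩ : (O.toG phi q hcard G1 hG).G1) : GL D.Idx F) = O.nJ F j := by
  have hu : O.TwU phi j (fun _ => (1 : Fˣ)) := fun _ => by simp
  refine (h.map_nh hown hu).trans ?_
  rw [nJ]
  congr 1
  funext i
  refine Units.ext ?_
  show f j (fun _ => ((1 : Fˣ) : F)) i = ((1 : Fˣ) : F)
  simp [h1]

/-- The torus relation. -/
theorem rel (hown : O.OwnOK) (j k : Fin m) {u : Fin (O.size j) → Fˣ} (hu : O.TwU phi j u)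
    {c : Fin (O.size k) → F} (hc : O.Tw phi k c) :
    ∃ hc' : O.Tw phi k (fun i => (O.tN j k u i : F) * c i),
      f k (fun i => (O.tN j k u i : F) * c i) =
        fun i => (O.tN j k (h.fU hu) i : F) * f k c i := by
  set n : (O.toG phi q hcard G1 hG).G1 := ⟨O.nh j u, hG ▸ O.nh_mem phi hu⟩ * (⟨O.nJ F j, hG ▸ O.nJ_mem phi j⟩)⁻¹
  have hmem : O.xh k true (fun i => (O.tN j k u i : F) * c i) ∈
      S.uminus F (O.toW.wJ k) ⊓ (G.sigma phi).eqLocus (MonoidHom.id _) := by
    refine Subgroup.mem_inf.2 ⟨O.xh_mem_genBy k _, ?_⟩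
    rw [← O.torus_conj]
    exact O.tgroup_le_fixed phi (mul_mem (mul_mem (mul_mem (O.nh_mem phi hu)
      (inv_mem (O.nJ_mem phi j))) (O.xh_mem phi k true hc))
      (inv_mem (mul_mem (O.nh_mem phi hu) (inv_mem (O.nJ_mem phi j)))))
  obtain ⟨c', hc', e⟩ := (O.mem_fixed_iff phi).1 hmem
  rw [← O.xh_inj k e] at hc'
  refine ⟨hc', O.xh_inj k ?_⟩
  rw [← h.pos k _ hc', ← O.torus_conj, ← h.pos k c hc, ← h.map_nh hown hu, ← h.map_nJ h1 hown j]
  have e2 : O.xT phi q hcard G1 hG k true _ hc' = n * O.xT phi q hcard G1 hG k true c hc * n⁻¹ :=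
    Subtype.ext (O.torus_conj j k u c).symm
  rw [e2]
  simp only [n, map_mul, map_inv, Subgroup.coe_mul, Subgroup.coe_inv]

theorem sq_mul (hown : O.OwnOK) {j : Fin m} {t c : Fin (O.size j) → F} (ht : O.Tw phi j t)
    (hc : O.Tw phi j c) :
    f j (fun i => t i * t i * c i) = fun i => f j t i * f j t i * f j c i := by
  rcases O.tw_cases phi ht with rfl | hne
  · simp only [zero_mul, h.f_zero]
  let u : Fin (O.size j) → Fˣ := fun i => Units.mk0 _ (hne i)
  have hu : O.TwU phi j u := fun i => Units.ext (ht i)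
  obtain ⟨-, e⟩ := h.rel h1 hown j j hu hc
  have hN : ∀ (v : Fin (O.size j) → Fˣ) i, O.tN j j v i = v i * v i := fun v i => by
    rw [tN, Finset.prod_eq_single_of_mem i (Finset.mem_univ _), hown j i i, if_pos rfl, zpow_two]
    intro l _ hl
    rw [hown j l i, if_neg hl, _root_.zpow_zero]
  simpa [hN, u, fU] using e

theorem f_mul (hown : O.OwnOK) {j : Fin m} {s c : Fin (O.size j) → F} (hs : O.Tw phi j s)
    (hc : O.Tw phi j c) : f j (fun i => s i * c i) = fun i => f j s i * f j c i := by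
  by_cases h2 : (2 : F) = 0
  · have hinj : Function.Injective fun t : {t : Fin (O.size j) → F // O.Tw phi j t} =>
        (⟨fun i => t.1 i * t.1 i, O.tw_mul phi t.2 t.2⟩ :
          {t : Fin (O.size j) → F // O.Tw phi j t}) := by
      intro a b e
      refine Subtype.ext (funext fun i => ?_)
      have e1 : a.1 i * a.1 i = b.1 i * b.1 i := congrFun (congrArg Subtype.val e) i
      have e' : (a.1 i - b.1 i) * (a.1 i - b.1 i) = 0 := by
        linear_combination e1 + (b.1 i * b.1 i - a.1 i * b.1 i) * h2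
      exact sub_eq_zero.1 (mul_self_eq_zero.1 e')
    obtain ⟨⟨t, ht⟩, et⟩ := Finite.injective_iff_surjective.1 hinj ⟨s, hs⟩
    obtain rfl : (fun i => t i * t i) = s := congrArg Subtype.val et
    have e := h.sq_mul h1 hown ht (O.tw_one phi j)
    simp only [mul_one, h1] at e
    rw [h.sq_mul h1 hown ht hc, e]
  · have hs1 := O.tw_add phi hs (O.tw_one phi j)
    have e1 := h.sq_mul h1 hown hs1 hc
    have e2 := h.sq_mul h1 hown hs hc
    have p1 := O.tw_mul phi (O.tw_mul phi hs hs) hc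
    have p2 := O.tw_mul phi hs hc
    rw [show (fun i => (s i + 1) * (s i + 1) * c i) =
      fun i => s i * s i * c i + s i * c i + s i * c i + c i from funext fun i => by ring,
      h.f_add (O.tw_add phi (O.tw_add phi p1 p2) p2) hc, h.f_add (O.tw_add phi p1 p2) p2,
      h.f_add p1 p2, e2] at e1
    funext i
    have e3 := congrFun e1 i
    simp only [congrFun (h.f_add hs (O.tw_one phi j)) i, congrFun (h1 j) i] at e3
    exact mul_left_cancel₀ h2 (by linear_combination e3)

end TwStd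

end Orbits

end Twisted

end CfsgLib.Chev
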