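import Cfsg.Agent.Chev.Twisted.BN
import Cfsg.Agent.Chev.AutThm.Normalizer
import Cfsg.Agent.BNPair.Parabolic

/-!
# Automorphisms of a twisted group permute the root groups of the orbits up to an inner automorphism
-/

set_option autoImplicit false

namespace CfsgLib.Chev

open Cfsg.Lie Matrix

universe u

namespace Twisted

variable {D : ChevalleyDatum} {S : Sys.{u} D} {m : ℕ} {T : WData S m} {K : Type u} [Field K]

namespace GData

variable (A : GData T K)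

/-- The negative unipotent subgroup of the twisted group. -/
def V1 : Subgroup (GL D.Idx K) := D.negUnipotent K ⊓ A.G1

/-- The root group of an orbit. -/
def Xp (j : Fin m) : Subgroup (GL D.Idx K) := A.uw (T.wJ j)

/-- The root group of the negative of an orbit. -/
def Xn (j : Fin m) : Subgroup (GL D.Idx K) := (A.Xp j).map (MulAut.conj (A.nJ j)).toMonoidHom

/-- An automorphism carrying `X` onto `Y`. -/
def MapsOn (θ : MulAut A.G1) (X Y : Subgroup (GL D.Idx K)) : Prop :=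
  ∀ g : A.G1, ((θ g : A.G1) : GL D.Idx K) ∈ Y ↔ (g : GL D.Idx K) ∈ X

theorem MapsOn.symm {A : GData T K} {θ : MulAut A.G1} {X Y : Subgroup (GL D.Idx K)}
    (h : A.MapsOn θ X Y) : A.MapsOn θ⁻¹ Y X := fun g => by
  conv_rhs => rw [← MulAut.apply_inv_self _ θ g]
  exact (h _).symm

theorem coe_conj_mul (x : A.G1) (θ : MulAut A.G1) (g : A.G1) :
    (((MulAut.conj x * θ) g : A.G1) : GL D.Idx K) =
      (x : GL D.Idx K) * (θ g : GL D.Idx K) * (x : GL D.Idx K)⁻¹ := rfl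

theorem Xp_le_U1 (j : Fin m) : A.Xp j ≤ A.U1 := fun _ hx =>
  Subgroup.mem_inf.2 ⟨S.genBy_le_pos _ (Subgroup.mem_inf.1 hx).1, (Subgroup.mem_inf.1 hx).2⟩

theorem Xp_le (j : Fin m) : A.Xp j ≤ A.G1 := A.uw_le (T.wJ_mem j)

theorem mem_Xn {j : Fin m} {g : GL D.Idx K} :
    g ∈ A.Xn j ↔ ∃ x ∈ A.Xp j, g = A.nJ j * x * (A.nJ j)⁻¹ :=
  ⟨fun ⟨x, hx, e⟩ => ⟨x, hx, e.symm⟩, fun ⟨x, hx, e⟩ => ⟨x, hx, e.symm⟩⟩

theorem Xn_le_V1 (j : Fin m) : A.Xn j ≤ A.V1 := by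
  rintro g ⟨x, hx, rfl⟩
  exact Subgroup.mem_inf.2 ⟨S.uminus_conj_neg (A.nJ_acts j) (Subgroup.mem_inf.1 hx).1,
    mul_mem (mul_mem (A.nJ_mem j) (A.Xp_le j hx)) (inv_mem (A.nJ_mem j))⟩

theorem Xn_le (j : Fin m) : A.Xn j ≤ A.G1 := fun _ hx => (Subgroup.mem_inf.1 (A.Xn_le_V1 j hx)).2

theorem card_Xn (j : Fin m) : Nat.card (A.Xn j) = A.q ^ T.lj j :=
  (Nat.card_congr (Subgroup.equivMapOfInjective _ _
    (MulAut.conj (A.nJ j)).injective).toEquiv).symm.trans (A.card_XJ j)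

theorem card_Xp (j : Fin m) : Nat.card (A.Xp j) = A.q ^ T.lj j := A.card_XJ j

theorem Xp_nontrivial (j : Fin m) : ∃ x ∈ A.Xp j, x ≠ 1 := by
  obtain ⟨-, -, x, hx, -, -, hx1, -⟩ := A.nJ_eq j
  exact ⟨x, hx, hx1⟩

theorem one_lt_q [Finite K] (j : Fin m) : 1 < A.q := by
  have := Sys.finite_GL (D := D) (F := K)
  obtain ⟨x, hx, hx1⟩ := A.Xp_nontrivial j
  have : Nontrivial (A.Xp j) := ⟨⟨⟨x, hx⟩, 1, fun e => hx1 (congrArg Subtype.val e)⟩⟩
  have h := Finite.one_lt_card (α := A.Xp j)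
  rw [A.card_Xp] at h
  by_contra hle
  have := Nat.pow_le_pow_left (not_lt.1 hle) (T.lj j)
  rw [one_pow] at this
  omega

theorem mem_B_iff (g : A.G1) : g ∈ A.bnPair.B ↔ (g : GL D.Idx K) ∈ A.B1 := by
  rw [bnPair_B, Subgroup.mem_subgroupOf, A.borel_inf_G1]

/-- `B¹` normalises `U¹`. -/
theorem borel_conj_U1 {b x : GL D.Idx K} (hb : b ∈ A.B1) (hx : x ∈ A.U1) : b * x * b⁻¹ ∈ A.U1 := by
  obtain ⟨u, hu, h, hh, rfl⟩ := hb
  rw [show u * h * x * (u * h)⁻¹ = u * (h * x * h⁻¹) * u⁻¹ by group]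
  exact mul_mem (mul_mem hu (A.conj_U1 hh hx)) (inv_mem hu)

/-- `B¹` is the normaliser of `U¹`. -/
theorem mem_B1_of_normalizes {g : GL D.Idx K} (hg : g ∈ A.G1)
    (h : ∀ x ∈ A.U1, g * x * g⁻¹ ∈ A.U1) : g ∈ A.B1 := by
  obtain ⟨b, hb, n, hn, w, hwg, hw, u, hu, rfl⟩ := A.exists_normal_form hg
  have huU : u ∈ A.U1 :=
    Subgroup.mem_inf.2 ⟨S.genBy_le_pos _ (Subgroup.mem_inf.1 hu).1, (Subgroup.mem_inf.1 hu).2⟩
  have hnU : ∀ y ∈ A.U1, n * y * n⁻¹ ∈ A.U1 := by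
    intro y hy
    have h1 := h (u⁻¹ * y * u) (mul_mem (mul_mem (inv_mem huU) hy) huU)
    have h2 := A.borel_conj_U1 (inv_mem hb) h1
    rwa [show b⁻¹ * (b * n * u * (u⁻¹ * y * u) * (b * n * u)⁻¹) * b⁻¹⁻¹ = n * y * n⁻¹ by group] at h2
  have hw1 : w = 1 := by
    by_contra hne
    obtain ⟨j, hj⟩ := T.exists_flip hwg hne
    obtain ⟨x, hx, hx1⟩ := A.Xp_nontrivial j
    have hsub : x ∈ S.uminus K w := S.genBy_mono (fun r hr hr' hf =>
      (S.flipsNeg_iff ⟨r, hr'⟩).2 (hj _ (T.mem_inJ.2 ⟨hr, (S.flipsNeg_iff ⟨r, hr'⟩).1 hf⟩)))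
      (Subgroup.mem_inf.1 hx).1
    have h3 : n * x * n⁻¹ ∈ D.posUnipotent K ⊓ D.negUnipotent K :=
      Subgroup.mem_inf.2 ⟨(Subgroup.mem_inf.1 (hnU x (A.Xp_le_U1 j hx))).1,
        S.uminus_conj_neg hw hsub⟩
    rw [S.pos_inf_neg, Subgroup.mem_bot, conj_eq_one_iff] at h3
    exact hx1 h3
  subst hw1
  have hnH : n ∈ A.H1 := by
    rw [← A.N1_inf_diag]
    exact Subgroup.mem_inf.2 ⟨hn, S.mem_diag_of_pos (A.N1_le_mono hn) hw fun r hr => hr⟩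
  exact mul_mem (mul_mem hb (A.H1_le_B1 hnH)) (A.U1_le_B1 huU)

/-- The index of `U¹` is prime to the characteristic. -/
theorem not_dvd_index_U1 [Finite K] (p : ℕ) [hp : Fact p.Prime] [CharP K p] :
    ¬ p ∣ (A.U1.subgroupOf A.G1).index := by
  classical
  have := Sys.finite_GL (D := D) (F := K)
  have hmul := (A.U1.subgroupOf A.G1).card_mul_index
  rw [Nat.card_congr (Subgroup.subgroupOfEquivOfLe A.U1_le).toEquiv, A.card_G1,
    mul_comm (Nat.card A.H1), mul_assoc] at hmul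
  rw [Nat.eq_of_mul_eq_mul_left Nat.card_pos hmul]
  intro hdvd
  let := Fintype.ofFinite K
  obtain ⟨k, -, hk⟩ := FiniteField.card K p
  rcases hp.out.dvd_mul.1 hdvd with h | h
  · have hH : Nat.card A.H1 ∣ (Nat.card K - 1) ^ D.rank := by
      refine (Subgroup.card_dvd_of_le A.H1_diag).trans ?_
      rw [S.diagonalSubgroup_eq]
      refine (Subgroup.card_range_dvd _).trans ?_
      rw [Nat.card_pi, Finset.prod_const, Finset.card_univ, Fintype.card_fin, Nat.card_units]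
    have h1 := hp.out.dvd_of_dvd_pow (h.trans hH)
    have hK : p ∣ Nat.card K := by
      rw [Nat.card_eq_fintype_card, hk]; exact dvd_pow_self p k.pos.ne'
    have h2 := Nat.dvd_sub hK h1
    have hK1 : 1 < Nat.card K := Finite.one_lt_card
    rw [show Nat.card K - (Nat.card K - 1) = 1 by omega] at h2
    exact hp.out.one_lt.ne' (Nat.dvd_one.1 h2)
  · -- only the trivial element contributes a unit
    have hone : (1 : Equiv.Perm (Fin D.nroots)) ∈ T.goodSet := T.mem_goodSet.2 (Subgroup.one_mem _)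
    rw [← Finset.add_sum_erase _ _ hone, T.tlen_one, pow_zero] at h
    have hq : ∀ j : Fin m, p ∣ A.q := fun j => by
      have h3 : Nat.card (A.Xp j) ∣ Nat.card (D.posUnipotent K) :=
        Subgroup.card_dvd_of_le ((A.Xp_le_U1 j).trans inf_le_left)
      rw [A.card_Xp, S.card_pos, Nat.card_eq_fintype_card, hk, ← pow_mul] at h3
      obtain ⟨r, hr, hrq⟩ := Nat.exists_prime_and_dvd (A.one_lt_q j).ne'
      have h4 : r ∣ p ^ ((k : ℕ) * (D.nroots / 2)) :=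
        (hrq.trans (dvd_pow_self A.q (T.lj_pos j).ne')).trans h3
      rwa [(Nat.prime_dvd_prime_iff_eq hr hp.out).1 (hr.dvd_of_dvd_pow h4)] at hrq
    have hrest : p ∣ ∑ w ∈ T.goodSet.erase 1, A.q ^ T.tlen w := by
      refine Finset.dvd_sum fun w hw => ?_
      obtain ⟨hne, hw'⟩ := Finset.mem_erase.1 hw
      obtain ⟨j, -⟩ := T.exists_flip (T.mem_goodSet.1 hw') hne
      refine (hq j).trans (dvd_pow_self A.q fun h0 => hne ?_)
      have := T.tlen_eq (T.mem_goodSet.1 hw')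
      rw [h0, mul_zero] at this
      exact S.eq_one_of_wlen (T.good_le (T.mem_goodSet.1 hw')) this.symm K
    exact hp.out.one_lt.ne' (Nat.dvd_one.1 ((Nat.dvd_add_left hrest).1 h))

/-- Up to an inner automorphism, an automorphism keeps `U¹`. -/
theorem exists_keeps_U1 [Finite K] (θ : MulAut A.G1) :
    ∃ x : A.G1, A.MapsOn (MulAut.conj x * θ) A.U1 A.U1 := by
  have := Sys.finite_GL (D := D) (F := K)
  obtain ⟨p, hchar⟩ := CharP.exists K
  have hp := Fact.mk (CharP.char_is_prime K p)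
  let := Fintype.ofFinite K
  obtain ⟨k, -, hk⟩ := FiniteField.card K p
  have hpos : IsPGroup p (D.posUnipotent K) := by
    refine IsPGroup.of_card (n := (k : ℕ) * (D.nroots / 2)) ?_
    rw [S.card_pos, Nat.card_eq_fintype_card, hk, ← pow_mul]
  set U := A.U1.subgroupOf A.G1
  have hU : IsPGroup p U :=
    (hpos.to_le (inf_le_left : A.U1 ≤ D.posUnipotent K)).of_equiv
      (Subgroup.subgroupOfEquivOfLe A.U1_le).symm
  let P : Sylow p A.G1 := hU.toSylow (A.not_dvd_index_U1 p)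
  have hUθ : ¬ p ∣ (U.map θ.toMonoidHom).index := by
    rw [Subgroup.index_map_of_bijective (f := θ.toMonoidHom) θ.bijective]
    exact A.not_dvd_index_U1 p
  let Q : Sylow p A.G1 := (hU.map θ.toMonoidHom).toSylow hUθ
  obtain ⟨x, hx⟩ := MulAction.exists_smul_eq A.G1 Q P
  refine ⟨x, fun g => ?_⟩
  have e : (U.map θ.toMonoidHom).map (MulAut.conj x).toMonoidHom = U := by
    exact congrArg (fun P : Sylow p A.G1 => (P : Subgroup A.G1)) hx
  have h2 : (MulAut.conj x * θ) g ∈ U ↔ g ∈ U := by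
    conv_lhs => rw [← e, Subgroup.map_map]
    exact Subgroup.mem_map_iff_mem (f := (MulAut.conj x).toMonoidHom.comp θ.toMonoidHom)
      (MulAut.conj x * θ).injective
  simpa only [U, Subgroup.mem_subgroupOf] using h2

/-- An element of `N¹` reversing all positive roots. -/
theorem exists_opposite : ∃ (n : A.G1) (w : Equiv.Perm (Fin D.nroots)) (L : List ℕ),
    w ∈ T.good ∧ (∀ q ∈ L, q < D.rank) ∧ w = S.wprod L ∧ S.Acts (n : GL D.Idx K) w ∧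
    ∀ r : Fin D.nroots, D.nroots / 2 ≤ (r : ℕ) → (w r : ℕ) < D.nroots / 2 := by
  obtain ⟨w, hwg, hw⟩ := T.exists_longest
  obtain ⟨M, hM⟩ := T.exists_wT hwg
  obtain ⟨L, hL, hLw⟩ := S.exists_wprod (T.good_le hwg)
  exact ⟨⟨A.nT M, A.nT_mem M⟩, w, L, hwg, hL, hLw.symm, hM ▸ A.nT_acts M,
    fun r hr => not_le.1 (hw r hr)⟩

theorem conj_mem_iff {n : A.G1} (g : A.G1) {X Y : Subgroup (GL D.Idx K)}
    (h : ∀ y : GL D.Idx K, (n : GL D.Idx K) * y * (n : GL D.Idx K)⁻¹ ∈ X ↔ y ∈ Y) :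
    (n : GL D.Idx K) * g * (n : GL D.Idx K)⁻¹ ∈ X ⊓ A.G1 ↔ (g : GL D.Idx K) ∈ Y ⊓ A.G1 := by
  rw [Subgroup.mem_inf, Subgroup.mem_inf, h]
  exact ⟨fun h' => ⟨h'.1, g.2⟩, fun h' => ⟨h'.1, mul_mem (mul_mem n.2 g.2) (inv_mem n.2)⟩⟩

theorem mem_U1_iff (g : A.G1) : (g : GL D.Idx K) ∈ A.U1 ↔ (g : GL D.Idx K) ∈ D.posUnipotent K :=
  ⟨fun h => (Subgroup.mem_inf.1 h).1, fun h => Subgroup.mem_inf.2 ⟨h, A.G1_le_Fx g.2⟩⟩

theorem mem_V1_iff (g : A.G1) : (g : GL D.Idx K) ∈ A.V1 ↔ (g : GL D.Idx K) ∈ D.negUnipotent K :=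
  ⟨fun h => (Subgroup.mem_inf.1 h).1, fun h => Subgroup.mem_inf.2 ⟨h, g.2⟩⟩

/-- Up to an inner automorphism, an automorphism keeps `U¹` and `V¹`. -/
theorem exists_keeps [Finite K] (θ : MulAut A.G1) :
    ∃ x : A.G1, A.MapsOn (MulAut.conj x * θ) A.U1 A.U1 ∧ A.MapsOn (MulAut.conj x * θ) A.V1 A.V1 := by
  obtain ⟨x, hU⟩ := A.exists_keeps_U1 θ
  set θ' := MulAut.conj x * θ with hθ'
  obtain ⟨n₀, w₀, L, hwg₀, hL, hwL, hn₀, hflip⟩ := A.exists_opposite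
  obtain ⟨b, hb, n, hn, w, hwg, hw, y, hy, e⟩ := A.exists_normal_form (θ' n₀).2
  have hyU : y ∈ A.U1 :=
    Subgroup.mem_inf.2 ⟨S.genBy_le_pos _ (Subgroup.mem_inf.1 hy).1, (Subgroup.mem_inf.1 hy).2⟩
  set bG : A.G1 := ⟨b, A.B1_le hb⟩
  set θ'' := MulAut.conj bG⁻¹ * θ' with hθ''
  have hU'' : A.MapsOn θ'' A.U1 A.U1 := fun g => by
    rw [hθ'', coe_conj_mul]
    refine Iff.trans ?_ (hU g)
    constructor
    · intro h
      simpa [bG, mul_assoc] using A.borel_conj_U1 hb h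
    · intro h
      simpa [bG, mul_assoc] using A.borel_conj_U1 (inv_mem hb) h
  set nG : A.G1 := ⟨n, A.N1_le hn⟩ with hnG
  have hkey : ∀ g : A.G1, (g : GL D.Idx K) ∈ A.V1 ↔
      n⁻¹ * (θ'' g : GL D.Idx K) * n ∈ A.U1 := by
    intro g
    have h1 : (g : GL D.Idx K) ∈ A.V1 ↔ ((n₀⁻¹ * g * n₀ : A.G1) : GL D.Idx K) ∈ A.U1 := by
      rw [A.mem_U1_iff, A.mem_V1_iff, ← S.conj_eq_negUnipotent hn₀ hflip]
      push_cast
      rw [show (n₀ : GL D.Idx K) * ((n₀ : GL D.Idx K)⁻¹ * g * n₀) * (n₀ : GL D.Idx K)⁻¹ =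
        (g : GL D.Idx K) by group]
    rw [h1, ← hU'' _]
    have e' : θ'' (n₀⁻¹ * g * n₀) = (θ'' n₀)⁻¹ * θ'' g * θ'' n₀ := by simp
    rw [e']
    have e2 : (θ'' n₀ : GL D.Idx K) = n * y * b := by
      rw [hθ'', coe_conj_mul, e]
      simp [bG, mul_assoc]
    push_cast
    rw [e2]
    have e3 : ∀ z : GL D.Idx K, (n * y * b)⁻¹ * z * (n * y * b) =
        b⁻¹ * (y⁻¹ * (n⁻¹ * z * n) * y) * b := fun z => by group
    rw [e3]
    constructor
    · intro h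
      have h2 := A.borel_conj_U1 hb h
      rw [show b * (b⁻¹ * (y⁻¹ * (n⁻¹ * (θ'' g : GL D.Idx K) * n) * y) * b) * b⁻¹ =
        y⁻¹ * (n⁻¹ * (θ'' g : GL D.Idx K) * n) * y by group] at h2
      have := mul_mem (mul_mem hyU h2) (inv_mem hyU)
      rwa [show y * (y⁻¹ * (n⁻¹ * (θ'' g : GL D.Idx K) * n) * y) * y⁻¹ =
        n⁻¹ * (θ'' g : GL D.Idx K) * n by group] at this
    · intro h
      have := A.borel_conj_U1 (inv_mem hb) (mul_mem (mul_mem (inv_mem hyU) h) hyU)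
      rwa [inv_inv] at this
  have hwflip : ∀ r : Fin D.nroots, D.nroots / 2 ≤ (r : ℕ) → (w r : ℕ) < D.nroots / 2 := by
    have hall : ∀ i : Fin D.rank, ¬ S.Pos (w (S.sr i)) := by
      intro i hpos
      obtain ⟨x₁, hx₁, hx₁1⟩ := A.Xp_nontrivial (T.ob i)
      have hzU : n * x₁ * n⁻¹ ∈ A.U1 := by
        refine Subgroup.mem_inf.2 ⟨?_, mul_mem (mul_mem (A.G1_le_Fx (A.N1_le hn))
          (Subgroup.mem_inf.1 hx₁).2) (inv_mem (A.G1_le_Fx (A.N1_le hn)))⟩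
        have := S.conj_genBy (Q := fun _ => True) hw (fun r hr hf =>
          ⟨T.keep_all hwg (T.sr_mem_inJ i) hpos r
            (T.mem_inJ.2 ⟨hr, (S.flipsNeg_iff r).1 hf⟩), trivial⟩) (Subgroup.mem_inf.1 hx₁).1
        exact S.genBy_le_pos _ this
      set z : A.G1 := ⟨n * x₁ * n⁻¹,
        mul_mem (mul_mem (A.N1_le hn) (A.Xp_le _ hx₁)) (inv_mem (A.N1_le hn))⟩ with hz
      have h1 : ((θ''⁻¹ z : A.G1) : GL D.Idx K) ∈ A.U1 := (hU''.symm z).2 hzU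
      have h2 : ((θ''⁻¹ z : A.G1) : GL D.Idx K) ∈ A.V1 := by
        rw [hkey, MulAut.apply_inv_self]
        show n⁻¹ * (n * x₁ * n⁻¹) * n ∈ _
        rw [show n⁻¹ * (n * x₁ * n⁻¹) * n = x₁ by group]
        exact A.Xp_le_U1 _ hx₁
      have h3 : ((θ''⁻¹ z : A.G1) : GL D.Idx K) ∈ D.posUnipotent K ⊓ D.negUnipotent K :=
        ⟨(Subgroup.mem_inf.1 h1).1, (Subgroup.mem_inf.1 h2).1⟩
      rw [S.pos_inf_neg, Subgroup.mem_bot] at h3
      have h4 : θ''⁻¹ z = 1 := Subtype.ext h3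
      rw [map_eq_one_iff _ (MulEquiv.injective _)] at h4
      exact hx₁1 (conj_eq_one_iff.1 (congrArg Subtype.val h4))
    intro r hr
    -- `w₀ w` keeps every fundamental root positive
    have hone : w₀ * w = 1 := by
      refine S.eq_one_of_simple_pos (S.weyl.mul_mem (T.good_le hwg₀) (T.good_le hwg)) fun i => ?_
      rw [Equiv.Perm.mul_apply, ← not_not (a := S.Pos (w₀ (w (S.sr i)))), ← S.pos_ng,
        ← S.weyl_ng (T.good_le hwg₀)]
      exact not_le.2 (hflip _ ((S.pos_ng _).2 (hall i)))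
    by_contra hpos
    have h2 := hflip (w r) (not_lt.1 hpos)
    rw [← Equiv.Perm.mul_apply, hone, Equiv.Perm.one_apply] at h2
    omega
  refine ⟨bG⁻¹ * x, ?_, fun g => ?_⟩
  · rw [map_mul, mul_assoc]; exact hU''
  · rw [map_mul, mul_assoc, hkey g, A.mem_V1_iff]
    show (θ'' g : GL D.Idx K) ∈ _ ↔ _
    set z : A.G1 := nG⁻¹ * θ'' g * nG
    rw [show n⁻¹ * (θ'' g : GL D.Idx K) * n = (z : GL D.Idx K) from rfl, A.mem_U1_iff,
      ← S.conj_eq_negUnipotent hw hwflip (z : GL D.Idx K)]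
    show _ ↔ n * (n⁻¹ * (θ'' g : GL D.Idx K) * n) * n⁻¹ ∈ _
    rw [show n * (n⁻¹ * (θ'' g : GL D.Idx K) * n) * n⁻¹ = (θ'' g : GL D.Idx K) by group]

/-! ### Minimal parabolic subgroups -/

theorem keeps_B1 {θ : MulAut A.G1} (hU : A.MapsOn θ A.U1 A.U1) : A.MapsOn θ A.B1 A.B1 := by
  suffices h : ∀ φ : MulAut A.G1, A.MapsOn φ A.U1 A.U1 → ∀ g : A.G1,
      (g : GL D.Idx K) ∈ A.B1 → (φ g : GL D.Idx K) ∈ A.B1 from fun g =>
    ⟨fun hg => by simpa using h θ⁻¹ hU.symm _ hg, h θ hU g⟩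
  intro φ hφ g hg
  refine A.mem_B1_of_normalizes (φ g).2 fun x hx => ?_
  have h1 : ((φ⁻¹ ⟨x, A.U1_le hx⟩ : A.G1) : GL D.Idx K) ∈ A.U1 := (hφ.symm _).2 hx
  have h2 := (hφ (g * φ⁻¹ ⟨x, A.U1_le hx⟩ * g⁻¹)).2 (A.borel_conj_U1 hg h1)
  simpa only [map_mul, map_inv, MulAut.apply_inv_self, Subgroup.coe_mul, Subgroup.coe_inv] using h2

theorem Xn_mem_parabolic {j : Fin m} (g : A.G1) (hg : (g : GL D.Idx K) ∈ A.Xn j) :
    g ∈ A.bnPair.parabolic {A.nG j} := by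
  obtain ⟨x, hx, e⟩ := A.mem_Xn.1 hg
  have hs : A.nG j ∈ A.bnPair.parabolic {A.nG j} := BNPair.subset_parabolic _ _ rfl
  rw [show g = A.nG j * ⟨x, A.Xp_le j hx⟩ * (A.nG j)⁻¹ from Subtype.ext e]
  exact mul_mem (mul_mem hs (BNPair.B_le_parabolic _ _
    ((A.mem_B_iff _).2 (A.U1_le_B1 (A.Xp_le_U1 j hx))))) (inv_mem hs)

/-- No element of `B¹ n_J` lies in the negative unipotent group. -/
theorem not_neg_of_B1_nJ {j : Fin m} {b : GL D.Idx K} (hb : b ∈ A.B1)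
    (h : b * A.nJ j ∈ D.negUnipotent K) : False := by
  obtain ⟨n0, hn0, he⟩ := S.exists_n0 (F := K)
  have hgn : n0⁻¹ * (b * A.nJ j) * n0 ∈ D.posUnipotent K := by
    rw [← he] at h
    obtain ⟨y, hy, e⟩ := h
    rw [← e]
    simpa [mul_assoc] using hy
  have e2 : b * (A.nJ j * n0) * 1 = 1 * n0 * (n0⁻¹ * (b * A.nJ j) * n0) := by group
  have h5 := S.cell_unique (mul_mem (A.nJ_mono j) hn0) hn0 (A.B1_le_borel hb) (one_mem _)
    (one_mem _) (Subgroup.mem_sup_left hgn) e2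
  have h6 : n0 * ((A.nJ j * n0)⁻¹ * n0) * n0⁻¹ ∈ D.diagonalSubgroup K := S.mono_conj_diag hn0 h5
  rw [show n0 * ((A.nJ j * n0)⁻¹ * n0) * n0⁻¹ = (A.nJ j)⁻¹ by group] at h6
  have h7 := S.acts_unique (A.nJ_inv_acts j) (S.acts_diag h6)
  have h8 := T.wlen_wJ j
  rw [h7, S.wlen_one] at h8
  have := T.lj_pos j
  have := T.d_pos
  nlinarith

/-- `n_J x ∈ B¹ X_{-J}` for a non-trivial `x`. -/
theorem nJ_mul_mem [Finite K] {j : Fin m} {x : GL D.Idx K} (hx : x ∈ A.Xp j) (hx1 : x ≠ 1) :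
    ∃ b ∈ A.B1, ∃ y ∈ A.Xn j, A.nJ j * x = b * y := by
  have := Sys.finite_GL (D := D) (F := K)
  have hr : ∀ z : {z : A.Xp j // z ≠ 1}, ∃ c : {z : A.Xp j // z ≠ 1}, ∃ b ∈ A.B1,
      A.nJ j * (z.1 : GL D.Idx K) * (A.nJ j)⁻¹ = b * A.nJ j * (c.1 : GL D.Idx K) := by
    intro z
    obtain ⟨a', ha', h', hh', c', hc', e⟩ :=
      A.rank1 j _ z.1.2 fun h => z.2 (Subtype.ext h)
    have hb : a' * h' ∈ A.B1 :=
      mul_mem (A.U1_le_B1 (A.Xp_le_U1 j ha')) (A.H1_le_B1 hh')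
    refine ⟨⟨⟨c', hc'⟩, fun h => ?_⟩, a' * h', hb, by rw [e, ← mul_assoc a']⟩
    have h' := congrArg Subtype.val h
    refine A.not_neg_of_B1_nJ hb (j := j) ?_
    have h2 := S.uminus_conj_neg (A.nJ_acts j) (Subgroup.mem_inf.1 z.1.2).1
    rw [e, show c' = (1 : GL D.Idx K) from h', mul_one, ← mul_assoc] at h2
    exact h2
  choose f b hb hf using hr
  have hinj : Function.Injective f := by
    intro z z' e
    have h1 := hf z
    have h2 := hf z'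
    rw [e] at h1
    have h3 : A.nJ j * ((z.1 : GL D.Idx K) * (z'.1 : GL D.Idx K)⁻¹) * (A.nJ j)⁻¹ ∈
        D.borelSubgroup K ⊓ D.negUnipotent K := by
      refine Subgroup.mem_inf.2 ⟨?_, S.uminus_conj_neg (A.nJ_acts j)
        (Subgroup.mem_inf.1 (mul_mem z.1.2 (inv_mem z'.1.2))).1⟩
      rw [show A.nJ j * ((z.1 : GL D.Idx K) * (z'.1 : GL D.Idx K)⁻¹) * (A.nJ j)⁻¹ =
        A.nJ j * (z.1 : GL D.Idx K) * (A.nJ j)⁻¹ *
          (A.nJ j * (z'.1 : GL D.Idx K) * (A.nJ j)⁻¹)⁻¹ by group, h1, h2,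
        show b z * A.nJ j * ((f z').1 : GL D.Idx K) * (b z' * A.nJ j * (f z').1)⁻¹ =
          b z * (b z')⁻¹ by group]
      exact A.B1_le_borel (mul_mem (hb z) (inv_mem (hb z')))
    rw [S.borel_inf_neg, Subgroup.mem_bot, conj_eq_one_iff, mul_inv_eq_one] at h3
    exact Subtype.ext (Subtype.ext h3)
  obtain ⟨z, hz⟩ := Finite.injective_iff_surjective.1 hinj ⟨⟨x, hx⟩, fun h => hx1 (congrArg Subtype.val h)⟩
  refine ⟨(b z)⁻¹, inv_mem (hb z), _, A.mem_Xn.2 ⟨_, z.1.2, rfl⟩, ?_⟩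
  rw [hf z, hz]
  show A.nJ j * x = _
  group

theorem mem_Xn_of_mem [Finite K] {i : Fin m} {g : A.G1} (hg : (g : GL D.Idx K) ∈ A.V1)
    (hP : g ∈ A.bnPair.parabolic {A.nG i}) : (g : GL D.Idx K) ∈ A.Xn i := by
  set P := A.bnPair
  have hS : A.nG i ∈ P.S := ⟨i, rfl⟩
  let s : P.S := ⟨A.nG i, hS⟩
  obtain ⟨w, hw, hgw⟩ := (BNPair.mem_parabolic_iff P (Set.singleton_subset_iff.2 hS) g).1 hP
  have hw' : w = 1 ∨ w = BNPair.σ P s := by
    clear hgw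
    induction hw using Subgroup.closure_induction with
    | mem x hx =>
      obtain ⟨t, ht, rfl⟩ := hx
      exact Or.inr (congrArg _ (Subtype.ext ht))
    | one => exact Or.inl rfl
    | mul x y _ _ hx hy =>
      rcases hx with rfl | rfl <;> rcases hy with rfl | rfl
      · exact Or.inl (one_mul _)
      · exact Or.inr (one_mul _)
      · exact Or.inr (mul_one _)
      · exact Or.inl (BNPair.σ_sq P s)
    | inv x _ hx =>
      rcases hx with rfl | rfl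
      · exact Or.inl inv_one
      · exact Or.inr (BNPair.σ_inv P s)
  have hneg := (Subgroup.mem_inf.1 hg).1
  rcases hw' with rfl | rfl
  · have hB : (g : GL D.Idx K) ∈ D.borelSubgroup K ⊓ D.negUnipotent K :=
      ⟨A.B1_le_borel ((A.mem_B_iff g).1 ((BNPair.mem_cell_one P).1 hgw)), hneg⟩
    rw [S.borel_inf_neg, Subgroup.mem_bot] at hB
    rw [hB]; exact one_mem _
  · rw [BNPair.σ, BNPair.cell_mk, DoubleCoset.mem_doubleCoset] at hgw
    obtain ⟨a, ha, b', hb', e⟩ := hgw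
    have e' : (g : GL D.Idx K) = (a : GL D.Idx K) * A.nJ i * b' := congrArg Subtype.val e
    obtain ⟨h, hh, c, hc, hcF, x, hx, eb⟩ := A.exists_B1_split (j := i) ((A.mem_B_iff b').1 hb')
    have hFi := A.G1_le_Fx (A.nJ_mem i)
    have hmid : A.nJ i * h * (A.nJ i)⁻¹ * (A.nJ i * c * (A.nJ i)⁻¹) ∈ A.B1 :=
      mul_mem (A.H1_le_B1 (A.H1_conj i h hh)) (A.U1_le_B1 (Subgroup.mem_inf.2
        ⟨S.notflips_conj_pos (A.nJ_acts i) hc, mul_mem (mul_mem hFi hcF) (inv_mem hFi)⟩))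
    set b₀ := (a : GL D.Idx K) * (A.nJ i * h * (A.nJ i)⁻¹ * (A.nJ i * c * (A.nJ i)⁻¹)) with hb₀
    have hb₀B : b₀ ∈ A.B1 := mul_mem ((A.mem_B_iff a).1 ha) hmid
    have e0 : (g : GL D.Idx K) = b₀ * (A.nJ i * x) := by rw [e', eb, hb₀]; group
    by_cases hx1 : x = 1
    · exact (A.not_neg_of_B1_nJ hb₀B (j := i) (by rwa [e0, hx1, mul_one] at hneg)).elim
    obtain ⟨b₁, hb₁, y, hy, e1⟩ := A.nJ_mul_mem hx hx1
    rw [e1, ← mul_assoc] at e0
    have h3 : b₀ * b₁ ∈ D.borelSubgroup K ⊓ D.negUnipotent K := by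
      refine Subgroup.mem_inf.2 ⟨A.B1_le_borel (mul_mem hb₀B hb₁), ?_⟩
      have := mul_mem hneg (inv_mem (Subgroup.mem_inf.1 (A.Xn_le_V1 i hy)).1)
      rwa [e0, mul_inv_cancel_right] at this
    rw [S.borel_inf_neg, Subgroup.mem_bot] at h3
    rw [e0, h3, one_mul]; exact hy

theorem Xn_disjoint [Finite K] {i i' : Fin m} (h : i ≠ i') {g : GL D.Idx K} (hg : g ∈ A.Xn i)
    (hg' : g ∈ A.Xn i') : g = 1 := by
  have h1 := A.Xn_mem_parabolic ⟨g, A.Xn_le i hg⟩ hg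
  have h2 := A.Xn_mem_parabolic ⟨g, A.Xn_le i hg⟩ hg'
  have h3 : (⟨g, A.Xn_le i hg⟩ : A.G1) ∈ A.bnPair.parabolic {A.nG i} ⊓
      A.bnPair.parabolic {A.nG i'} := ⟨h1, h2⟩
  rw [BNPair.parabolic_inf A.bnPair (J := {A.nG i}) (K := {A.nG i'}) (Set.singleton_subset_iff.2 ⟨i, rfl⟩)
    (Set.singleton_subset_iff.2 ⟨i', rfl⟩)] at h3
  have hempty : ({A.nG i} : Set A.G1) ∩ {A.nG i'} = ∅ := by
    refine Set.eq_empty_iff_forall_notMem.2 fun s hs => h ?_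
    refine A.eq_of_nG ?_
    have e : A.nG i = A.nG i' := hs.1.symm.trans hs.2
    rw [show A.nJ i = A.nJ i' from congrArg Subtype.val e, inv_mul_cancel]
    exact one_mem _
  have h4 : (⟨g, A.Xn_le i hg⟩ : A.G1) ∈ A.bnPair.B := by
    have hle : A.bnPair.parabolic (({A.nG i} : Set A.G1) ∩ {A.nG i'}) ≤ A.bnPair.B := by
      rw [hempty]
      exact sup_le le_rfl (by rw [Subgroup.closure_empty]; exact bot_le)
    exact hle h3
  have h5 : g ∈ D.borelSubgroup K ⊓ D.negUnipotent K :=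
    ⟨A.B1_le_borel ((A.mem_B_iff _).1 h4), (Subgroup.mem_inf.1 (A.Xn_le_V1 i hg)).1⟩
  rwa [S.borel_inf_neg, Subgroup.mem_bot] at h5

/-- The negative root groups of the orbits are permuted. -/
theorem exists_Xn_perm [Finite K] {θ : MulAut A.G1} (hU : A.MapsOn θ A.U1 A.U1)
    (hV : A.MapsOn θ A.V1 A.V1) :
    ∃ π : Equiv.Perm (Fin m), ∀ i, A.MapsOn θ (A.Xn i) (A.Xn (π i)) := by
  have := Sys.finite_GL (D := D) (F := K)
  have hB := A.keeps_B1 hU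
  set P := A.bnPair
  have key : ∀ i : Fin m, ∃ j : Fin m, ∀ g : A.G1,
      (g : GL D.Idx K) ∈ A.Xn j → ((θ⁻¹ g : A.G1) : GL D.Idx K) ∈ A.Xn i := by
    intro i
    set M := (P.parabolic {A.nG i}).map θ.toMonoidHom
    have hBM : P.B ≤ M := fun b hb => ⟨θ⁻¹ b, BNPair.B_le_parabolic _ _
      ((A.mem_B_iff _).2 ((hB.symm b).2 ((A.mem_B_iff b).1 hb))), MulAut.apply_inv_self _ θ b⟩
    obtain ⟨s, hsS, hsM⟩ : ∃ s ∈ P.S, s ∈ M := by
      by_contra hno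
      push Not at hno
      have hM : M ≤ P.B := by
        rw [BNPair.eq_parabolic P M hBM,
          show P.S ∩ (M : Set A.G1) = ∅ from
            Set.eq_empty_iff_forall_notMem.2 fun s hs => hno s hs.1 hs.2]
        exact sup_le le_rfl (by rw [Subgroup.closure_empty]; exact bot_le)
      have h1 : θ (A.nG i) ∈ P.B := hM ⟨_, BNPair.subset_parabolic _ _ rfl, rfl⟩
      exact BNPair.S_not_mem_B P ⟨_, ⟨i, rfl⟩⟩
        ((A.mem_B_iff _).2 ((hB _).1 ((A.mem_B_iff _).1 h1)))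
    obtain ⟨j, rfl⟩ := hsS
    refine ⟨j, fun g hg => A.mem_Xn_of_mem ((hV.symm _).2 (A.Xn_le_V1 j hg)) ?_⟩
    have hle : P.parabolic {A.nG j} ≤ (P.parabolic {A.nG i}).comap θ⁻¹.toMonoidHom := by
      refine sup_le (fun b hb => BNPair.B_le_parabolic _ _
        ((A.mem_B_iff _).2 ((hB.symm b).2 ((A.mem_B_iff b).1 hb)))) ?_
      rw [Subgroup.closure_le, Set.singleton_subset_iff]
      obtain ⟨y, hy, hye⟩ := hsM
      refine Subgroup.mem_comap.2 ?_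
      show θ⁻¹ (A.nG j) ∈ _
      rw [← hye]
      show θ⁻¹ (θ y) ∈ _
      rwa [MulAut.inv_apply_self]
    exact hle (A.Xn_mem_parabolic g hg)
  choose p hk using key
  have hp : Function.Injective p := by
    intro i i' e
    by_contra hne
    obtain ⟨x, hx, hx1⟩ := A.Xp_nontrivial (p i)
    set g : A.G1 := ⟨_, A.Xn_le (p i) (A.mem_Xn.2 ⟨x, hx, rfl⟩)⟩
    have h := A.Xn_disjoint hne (hk i g (A.mem_Xn.2 ⟨x, hx, rfl⟩))
      (hk i' g (e ▸ A.mem_Xn.2 ⟨x, hx, rfl⟩))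
    have h' : θ⁻¹ g = 1 := Subtype.ext h
    rw [map_eq_one_iff _ (MulEquiv.injective _)] at h'
    exact hx1 (conj_eq_one_iff.1 (congrArg Subtype.val h'))
  let π := Equiv.ofBijective p (Finite.injective_iff_bijective.1 hp)
  let f : ∀ i, A.Xn (p i) → A.Xn i := fun i g => ⟨_, hk i ⟨g, A.Xn_le _ g.2⟩ g.2⟩
  have hf : ∀ i, Function.Injective (f i) := fun i g g' e => by
    have h1 : θ⁻¹ ⟨(g : GL D.Idx K), A.Xn_le _ g.2⟩ = θ⁻¹ ⟨(g' : GL D.Idx K), A.Xn_le _ g'.2⟩ :=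
      Subtype.ext (congrArg (fun z : A.Xn i => (z : GL D.Idx K)) e)
    exact Subtype.ext (congrArg (fun z : A.G1 => (z : GL D.Idx K)) ((MulEquiv.injective θ⁻¹) h1))
  have hle : ∀ i ∈ (Finset.univ : Finset (Fin m)), Nat.card (A.Xn (p i)) ≤ Nat.card (A.Xn i) :=
    fun i _ => Nat.card_le_card_of_injective _ (hf i)
  have hcard : ∀ i, Nat.card (A.Xn (p i)) = Nat.card (A.Xn i) := fun i =>
    (Finset.sum_eq_sum_iff_of_le hle).1 (Equiv.sum_comp π fun j => Nat.card (A.Xn j)) i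
      (Finset.mem_univ i)
  refine ⟨π, fun i g => ⟨fun h => ?_, fun h => ?_⟩⟩
  · simpa using hk i (θ g) h
  · obtain ⟨y, hy⟩ := ((hf i).bijective_of_nat_card_le (hcard i).ge).2 ⟨_, h⟩
    have h1 : θ⁻¹ ⟨(y : GL D.Idx K), A.Xn_le _ y.2⟩ = g :=
      Subtype.ext (congrArg (fun z : A.Xn i => (z : GL D.Idx K)) hy)
    rw [← h1, MulAut.apply_inv_self]
    exact y.2

/-- Every root of every orbit group is fundamental. -/
def SimpleOrbits (T : WData S m) : Prop :=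
  ∀ j, ∀ r ∈ T.inJ j, ∃ a : Fin D.rank, r = S.sr a ∧ T.ob a = j

variable (hT : SimpleOrbits T)

include hT

theorem opposite_orbit {w : Equiv.Perm (Fin D.nroots)} {L : List ℕ} (hwg : w ∈ T.good)
    (hL : ∀ q ∈ L, q < D.rank) (hwL : w = S.wprod L)
    (hflip : ∀ r : Fin D.nroots, D.nroots / 2 ≤ (r : ℕ) → (w r : ℕ) < D.nroots / 2) (j : Fin m) :
    ∃ k : Fin m, ∀ r ∈ T.inJ j, S.ng (w r) ∈ T.inJ k := by
  have hsimp : ∀ a : Fin D.rank, ∃ c : Fin D.rank, w (S.sr a) = S.ng (S.sr c) := fun a => by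
    obtain ⟨c, hc, e⟩ := S.flip_simple hL (fun r hr => hwL ▸ hflip r hr) a.2
    exact ⟨⟨c, hc⟩, Fin.ext (by rw [hwL]; exact e)⟩
  obtain ⟨i, hi, -⟩ := T.exists_inJ j
  obtain ⟨c, hc⟩ := hsimp i
  refine ⟨T.ob c, fun r hr => ?_⟩
  have hv : T.wJ (T.ob c) * w ∈ T.good := mul_mem (T.wJ_mem _) hwg
  have h0 : S.Pos ((T.wJ (T.ob c) * w) (S.sr i)) := by
    rw [Equiv.Perm.mul_apply, hc, S.weyl_ng (T.wJ_weyl _), S.pos_ng]
    exact (T.mem_inJ.1 (T.sr_mem_inJ c)).2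
  have h1 := T.keep_all hv hi h0 r hr
  obtain ⟨a, rfl, -⟩ := hT j r hr
  obtain ⟨c', hc'⟩ := hsimp a
  rw [Equiv.Perm.mul_apply, hc', S.weyl_ng (T.wJ_weyl _), S.pos_ng] at h1
  rw [hc', S.ng_ng]
  exact T.mem_inJ.2 ⟨(S.simple_pos c' c'.2).1, h1⟩

theorem orbit_disjoint {j k : Fin m} {r : Fin D.nroots} (h : r ∈ T.inJ j) (h' : r ∈ T.inJ k) :
    j = k := by
  obtain ⟨a, ha, ea⟩ := hT j r h
  obtain ⟨a', ha', ea'⟩ := hT k r h'
  rw [← ea, ← ea', S.sr_injective (ha.symm.trans ha')]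

omit hT in
theorem conj_Xp_le {n : A.G1} {w : Equiv.Perm (Fin D.nroots)} (hn : S.Acts (n : GL D.Idx K) w)
    {j k : Fin m} (hk : ∀ r ∈ T.inJ j, S.ng (w r) ∈ T.inJ k) {x : GL D.Idx K} (hx : x ∈ A.Xp j) :
    (n : GL D.Idx K) * x * (n : GL D.Idx K)⁻¹ ∈ A.Xn k := by
  refine A.mem_Xn.2 ⟨(A.nJ k)⁻¹ * ((n : GL D.Idx K) * x * (n : GL D.Idx K)⁻¹) * A.nJ k,
    Subgroup.mem_inf.2 ⟨?_, ?_⟩, by group⟩
  · have hm : S.Acts ((A.nJ k)⁻¹ * (n : GL D.Idx K)) (T.wJ k * w) :=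
      S.acts_mul (A.nJ_inv_acts k) hn
    have := S.conj_genBy (Q := fun r => Sys.FlipsNeg (T.wJ k) r) hm (fun r hr hf => ?_)
      (Subgroup.mem_inf.1 hx).1
    · rwa [show ((A.nJ k)⁻¹ * (n : GL D.Idx K)) * x * ((A.nJ k)⁻¹ * (n : GL D.Idx K))⁻¹ =
        (A.nJ k)⁻¹ * ((n : GL D.Idx K) * x * (n : GL D.Idx K)⁻¹) * A.nJ k by group] at this
    · have h1 := hk r (T.mem_inJ.2 ⟨hr, (S.flipsNeg_iff r).1 hf⟩)
      have h2 : (T.wJ k * w) r ∈ T.inJ k := by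
        have h3 := T.ng_wJ_mem h1
        rwa [S.weyl_ng (T.wJ_weyl _), S.ng_ng] at h3
      exact ⟨(T.mem_inJ.1 h2).1, (S.flipsNeg_iff _).2 (T.mem_inJ.1 h2).2⟩
  · have hk' := A.G1_le_Fx (A.nJ_mem k)
    exact mul_mem (mul_mem (inv_mem hk') (mul_mem (mul_mem (A.G1_le_Fx n.2)
      (Subgroup.mem_inf.1 hx).2) (inv_mem (A.G1_le_Fx n.2)))) hk'

theorem exists_opposite_perm [Finite K] : ∃ (n : A.G1) (a : Equiv.Perm (Fin m)),
    A.MapsOn (MulAut.conj n) A.U1 A.V1 ∧ A.MapsOn (MulAut.conj n) A.V1 A.U1 ∧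
      ∀ j, A.MapsOn (MulAut.conj n) (A.Xp j) (A.Xn (a j)) := by
  have := Sys.finite_GL (D := D) (F := K)
  obtain ⟨n, w, L, hwg, hL, hwL, hn, hflip⟩ := A.exists_opposite
  choose a ha using opposite_orbit hT hwg hL hwL hflip
  have hainj : Function.Injective a := by
    intro j j' e
    obtain ⟨i, hi, -⟩ := T.exists_inJ j
    have hwi : ∀ r : Fin D.nroots, D.nroots / 2 ≤ (r : ℕ) → (w⁻¹ r : ℕ) < D.nroots / 2 := by
      intro r hr
      by_contra hpos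
      have h1 := hflip _ (not_lt.1 hpos)
      rw [Equiv.Perm.coe_inv, Equiv.apply_symm_apply] at h1
      omega
    obtain ⟨L', hL', eL'⟩ := S.exists_wprod (T.good_le (inv_mem hwg))
    obtain ⟨k, hk⟩ := opposite_orbit hT (inv_mem hwg) hL' eL'.symm hwi (a j)
    have key : ∀ (q : Fin m) (r : Fin D.nroots), a q = a j → r ∈ T.inJ q → q = k := by
      intro q r eq hr
      have h1 := hk _ (eq ▸ ha q r hr)
      rw [S.weyl_ng (T.good_le (inv_mem hwg)), S.ng_ng, Equiv.Perm.coe_inv,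
        Equiv.symm_apply_apply] at h1
      exact orbit_disjoint hT hr h1
    obtain ⟨i', hi', -⟩ := T.exists_inJ j'
    rw [key j _ rfl hi, key j' _ e.symm hi']
  let aE := Equiv.ofBijective a (Finite.injective_iff_bijective.1 hainj)
  refine ⟨n, aE, fun g => ?_, fun g => ?_, ?_⟩
  · show (n : GL D.Idx K) * g * (n : GL D.Idx K)⁻¹ ∈ A.V1 ↔ _
    rw [show (n : GL D.Idx K) * g * (n : GL D.Idx K)⁻¹ = ((n * g * n⁻¹ : A.G1) : GL D.Idx K) from rfl,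
      A.mem_V1_iff, A.mem_U1_iff]
    exact S.conj_eq_negUnipotent hn hflip _
  · show (n : GL D.Idx K) * g * (n : GL D.Idx K)⁻¹ ∈ A.U1 ↔ _
    rw [show (n : GL D.Idx K) * g * (n : GL D.Idx K)⁻¹ = ((n * g * n⁻¹ : A.G1) : GL D.Idx K) from rfl,
      A.mem_V1_iff, A.mem_U1_iff]
    exact S.conj_eq_posUnipotent hn hL hwL hflip _
  intro j g
  have hmap : ∀ i, (A.Xp i).map (MulAut.conj (n : GL D.Idx K)).toMonoidHom ≤ A.Xn (a i) := fun i => by
    rintro _ ⟨x, hx, rfl⟩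
    exact A.conj_Xp_le hn (ha i) hx
  have hcX : ∀ i, Nat.card ((A.Xp i).map (MulAut.conj (n : GL D.Idx K)).toMonoidHom) =
      Nat.card (A.Xp i) := fun i => (Nat.card_congr (Subgroup.equivMapOfInjective _ _
        (MulAut.conj (n : GL D.Idx K)).injective).toEquiv).symm
  have hle : ∀ i ∈ (Finset.univ : Finset (Fin m)), Nat.card (A.Xp i) ≤ Nat.card (A.Xn (aE i)) :=
    fun i _ => (hcX i).ge.trans (Subgroup.card_le_of_le (hmap i))
  have hsum : ∑ i, Nat.card (A.Xp i) = ∑ i, Nat.card (A.Xn (aE i)) := by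
    rw [Equiv.sum_comp aE fun i => Nat.card (A.Xn i)]
    exact Finset.sum_congr rfl fun i _ => by rw [A.card_Xp, A.card_Xn]
  have hcard := (Finset.sum_eq_sum_iff_of_le hle).1 hsum j (Finset.mem_univ j)
  have heq := Subgroup.eq_of_le_of_card_ge (hmap j) (hcard.ge.trans (hcX j).ge)
  show (n : GL D.Idx K) * g * (n : GL D.Idx K)⁻¹ ∈ A.Xn (a j) ↔ _
  rw [← heq]
  exact Subgroup.mem_map_iff_mem (f := (MulAut.conj (n : GL D.Idx K)).toMonoidHom)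
    (MulAut.conj (n : GL D.Idx K)).injective

/-- Up to an inner automorphism both kinds of root groups of the orbits are permuted. -/
theorem exists_perms [Finite K] (θ : MulAut A.G1) :
    ∃ (x : A.G1) (π π' : Equiv.Perm (Fin m)),
      A.MapsOn (MulAut.conj x * θ) A.U1 A.U1 ∧ A.MapsOn (MulAut.conj x * θ) A.V1 A.V1 ∧
      (∀ i, A.MapsOn (MulAut.conj x * θ) (A.Xn i) (A.Xn (π i))) ∧
      ∀ i, A.MapsOn (MulAut.conj x * θ) (A.Xp i) (A.Xp (π' i)) := by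
  obtain ⟨x, hU, hV⟩ := A.exists_keeps θ
  refine ⟨x, ?_⟩
  generalize MulAut.conj x * θ = φ at hU hV ⊢
  obtain ⟨π, hπ⟩ := A.exists_Xn_perm hU hV
  obtain ⟨n, a, hnU, hnV, hnX⟩ := A.exists_opposite_perm hT
  set c := MulAut.conj n
  set ψ := c * φ * c⁻¹ with hψ
  have hcomp : ∀ {X Y : Subgroup (GL D.Idx K)} {X' Y' : Subgroup (GL D.Idx K)},
      A.MapsOn c X X' → A.MapsOn φ X Y → A.MapsOn c Y Y' → A.MapsOn ψ X' Y' := fun h1 h2 h3 g =>
    (h3 _).trans ((h2 _).trans (h1.symm g))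
  obtain ⟨π₁, hπ₁⟩ := A.exists_Xn_perm (hcomp hnV hV hnV) (hcomp hnU hU hnU)
  refine ⟨π, a.trans (π₁.trans a.symm), hU, hV, hπ, fun i g => ?_⟩
  have h := hnX (a.symm (π₁ (a i))) (φ g)
  rw [Equiv.apply_symm_apply] at h
  rw [Equiv.trans_apply, Equiv.trans_apply, ← h,
    show c (φ g) = ψ (c g) by simp [hψ, MulAut.mul_apply], hπ₁ (a i) (c g)]
  exact hnX i g

end GData

end Twisted

end CfsgLib.Chev
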